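import Cfsg.Agent.PrimeSO.Count
import Cfsg.Agent.Classical.OrthForms
import Cfsg.Agent.Forms.FiniteQuadratic

/-!
The type of a quadratic space with an isometry of order `r` without fixed vectors.
-/

set_option autoImplicit false
set_option linter.all false

namespace Cfsg.Agent.PrimeSO

open Polynomial Module QuadraticMap

variable {F : Type*} [Field F] [Fintype F] {V : Type*} [AddCommGroup V] [Module F V] [FiniteDimensional F V] {r i : ℕ}

/-- Singular vectors fall into orbits of length `r`, apart from zero. -/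
theorem card_zeros_eq_one [Fact r.Prime] (Q : QuadraticForm F V) {T : Module.End F V} (hT : T ^ r = 1)
    (hQT : ∀ v, Q (T v) = Q v) (hfix : ∀ v, T v = v → v = 0) :
    (Nat.card {v // Q v = 0} : ZMod r) = 1 := by
  classical
  haveI : Finite V := Module.finite_of_finite F
  have : Fintype {v // Q v = 0} := Fintype.ofFinite _
  have hr : 0 < r := (Fact.out : r.Prime).pos
  have hinj : Function.Injective T := fun u v h => by
    have := congrArg (T ^ (r - 1)) h
    rwa [← Module.End.mul_apply, ← Module.End.mul_apply, ← pow_succ, Nat.sub_add_cancel hr, hT] at this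
  let σ : Equiv.Perm {v // Q v = 0} :=
    (Equiv.ofBijective T (Finite.injective_iff_bijective.1 hinj)).subtypeEquiv fun v => by
      show Q v = 0 ↔ Q (T v) = 0
      rw [hQT v]
  have hp : ∀ k : ℕ, ∀ w : {v // Q v = 0}, ((σ ^ k) w).1 = (T ^ k) w.1 := by
    intro k
    induction k with
    | zero => intro w; simp
    | succ k ih => intro w; rw [pow_succ, Equiv.Perm.mul_apply, ih, pow_succ, Module.End.mul_apply]; rfl
  have hσ : σ ^ r ^ 1 = 1 := Equiv.ext fun v => Subtype.ext (by rw [pow_one, hp, hT]; rfl)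
  have h := Equiv.Perm.card_compl_support_modEq hσ
  have hone : σ.supportᶜ = {⟨0, QuadraticMap.map_zero Q⟩} := by
    ext v
    simp only [Finset.mem_compl, Equiv.Perm.notMem_support, Finset.mem_singleton]
    refine ⟨fun hv => Subtype.ext (hfix _ (congrArg Subtype.val hv)), fun hv => ?_⟩
    subst hv
    exact Subtype.ext (map_zero T)
  rw [hone, Finset.card_singleton, ← ZMod.natCast_eq_natCast_iff, Nat.cast_one] at h
  rw [Nat.card_eq_fintype_card]
  exact h.symm

/-- In odd degree there is a totally singular subspace of half the dimension. -/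
theorem exists_half_singular (hr : r.Prime) (Φ : Fac F r i) (ho : Odd i) (Q : QuadraticForm F V)
    (hQ : (polarBilin Q).Nondegenerate) {T : Module.End F V} (hT : T ^ r = 1) (hQT : ∀ v, Q (T v) = Q v)
    (hfix : ∀ v, T v = v → v = 0) :
    ∃ U : Submodule F V, (∀ u ∈ U, Q u = 0) ∧ finrank F V ≤ 2 * finrank F U := by
  classical
  set B := polarBilin Q
  have hBT : ∀ u v, B (T u) (T v) = B u v := fun u v => by simp [B, polar, ← map_add, hQT]
  have hadj := aeval_adjoint B (adjoint_pow B hr.pos hBT hT)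
  let o := Fintype.equivFin Φ.s
  let S : Finset Φ.s := Finset.univ.filter fun f => o f < o (Φ.tau f)
  have hmem : ∀ f, f ∈ S ↔ o f < o (Φ.tau f) := fun f => by simp [S]
  have hS1 : ∀ f, f ∉ S → Φ.tau f ∈ S := fun f hf => by
    rw [hmem, Φ.tau_tau]
    rw [hmem, not_lt] at hf
    exact lt_of_le_of_ne hf fun e => Φ.tau_odd ho f (o.injective e)
  have hS2 : ∀ f, f ∈ S → Φ.tau f ∉ S := fun f hf hf' => by
    rw [hmem] at hf hf'
    rw [Φ.tau_tau] at hf'
    exact lt_asymm hf hf'
  set P : F[X] := ∏ f ∈ S, (f : F[X])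
  set P' : F[X] := ∏ f ∈ Sᶜ, (f : F[X])
  have hcopS : ∀ f g : Φ.s, f ≠ g → IsCoprime (f : F[X]) (g : F[X]) := fun f g h =>
    Φ.cop f (Finset.mem_insert_of_mem f.2) g (Finset.mem_insert_of_mem g.2) fun e => h (Subtype.ext e)
  have hcop : IsCoprime P P' := IsCoprime.prod_left fun f hf => IsCoprime.prod_right fun g hg =>
    hcopS f g fun e => Finset.mem_compl.1 hg (e ▸ hf)
  have hPP : aeval T (P * P') = 0 := by
    have h : aeval T ((X - 1) * (P * P')) = 0 := by
      rw [Finset.prod_mul_prod_compl]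
      have e := Φ.prod_eq
      rw [Finset.prod_insert Φ.hX, ← Finset.prod_coe_sort Φ.s (fun f => f)] at e
      rw [show (X - 1 : F[X]) * ∏ f : Φ.s, (f : F[X]) = X ^ r - 1 by convert e]
      simp [hT]
    refine LinearMap.ext fun v => ?_
    have h1 := LinearMap.congr_fun h v
    rw [map_mul, Module.End.mul_apply] at h1
    refine hfix _ (sub_eq_zero.1 ?_)
    simpa using h1
  set P2 : F[X] := P.comp (X ^ (r - 1))
  have hP2 : ∀ v, aeval T P2 v = aeval (T ^ (r - 1)) P v := fun v => by rw [aeval_comp, map_pow, aeval_X]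
  have hP2e : P2 = ∏ f ∈ S, ((f : F[X]).comp (X ^ (r - 1))) := Polynomial.prod_comp _ _ _
  have hdvd : P' ∣ P2 := Finset.prod_dvd_of_coprime
    (fun f _ g _ h => hcopS f g h) fun f hf => by
      rw [hP2e]
      refine Dvd.dvd.trans ?_ (Finset.dvd_prod_of_mem _ (hS1 f (Finset.mem_compl.1 hf)))
      have := Φ.dvd_tau (Φ.tau f)
      rwa [Φ.tau_tau] at this
  have hcop2 : IsCoprime P P2 := by
    rw [hP2e]
    exact IsCoprime.prod_left fun f hf => IsCoprime.prod_right fun g hg =>
      Φ.cop_tau g f fun e => hS2 g hg (e ▸ hf)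
  set U := LinearMap.ker (aeval T P)
  set U' := LinearMap.ker (aeval (T ^ (r - 1)) P)
  have hsup : U ⊔ U' = ⊤ := by
    rw [eq_top_iff]
    intro v _
    have h1 : v ∈ LinearMap.ker (aeval T (P * P')) := by simp [hPP]
    rw [← Polynomial.sup_ker_aeval_eq_ker_aeval_mul_of_coprime _ hcop] at h1
    have hle : LinearMap.ker (aeval T P') ≤ U' := fun w hw => ?_
    · exact sup_le_sup le_rfl hle h1
    obtain ⟨c, hc⟩ := hdvd
    rw [LinearMap.mem_ker, ← hP2, hc, mul_comm, map_mul, Module.End.mul_apply, LinearMap.mem_ker.1 hw, map_zero]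
  have hdim : finrank F U' = finrank F U := finrank_ker_adjoint B hQ (hadj P)
  refine ⟨U, ?_, ?_⟩
  · obtain ⟨c, d, hcd⟩ := hcop2
    have hB0 : ∀ u ∈ U, ∀ v ∈ U, B u v = 0 := fun u hu v hv => by
      have e : v = aeval T P2 (aeval T d v) := by
        have h := LinearMap.congr_fun (congrArg (aeval T) hcd) v
        rw [map_add, LinearMap.add_apply, map_mul, Module.End.mul_apply, LinearMap.mem_ker.1 hv, map_zero,
          zero_add, mul_comm d, map_mul, Module.End.mul_apply, map_one, Module.End.one_apply] at h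
        exact h.symm
      rw [e, hP2, ← hadj, LinearMap.mem_ker.1 hu, map_zero, LinearMap.zero_apply]
    intro u hu
    -- `T - 1` is onto on `U`
    have hTU : ∀ w ∈ U, T w ∈ U := fun w hw => by
      have e : aeval T P (T w) = T (aeval T P w) := by
        have h := LinearMap.congr_fun (congrArg (aeval T) (mul_comm P X)) w
        simpa [map_mul] using h
      rw [LinearMap.mem_ker, e, LinearMap.mem_ker.1 hw, map_zero]
    let D : U →ₗ[F] U := (T.restrict hTU) - LinearMap.id
    have hD : Function.Injective D := (injective_iff_map_eq_zero _).2 fun w hw =>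
      Subtype.ext (hfix _ (sub_eq_zero.1 (congrArg Subtype.val hw)))
    obtain ⟨w, hw⟩ := LinearMap.injective_iff_surjective.1 hD ⟨u, hu⟩
    have hw' : T w - (w : V) = u := congrArg Subtype.val hw
    have hp : ∀ x ∈ U, ∀ y ∈ U, polar Q x y = 0 := hB0
    have hQ2 : Q (w : V) + Q (w : V) = 0 := by
      have h1 := QuadraticMap.map_add Q (w : V) (w : V)
      rw [hp _ w.2 _ w.2, add_zero, ← two_smul F (w : V), QuadraticMap.map_smul, smul_eq_mul] at h1
      linear_combination h1
    rw [← hw', sub_eq_add_neg, QuadraticMap.map_add Q, hp _ (hTU _ w.2) _ (U.neg_mem w.2), QuadraticMap.map_neg, hQT,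
      add_zero, hQ2]
  · have := Submodule.finrank_sup_add_finrank_inf_eq U U'
    rw [hsup, finrank_top] at this
    omega

variable {q : ℕ}

/-- A hyperbolic space carrying such an isometry has an even number of blocks when `i` is even. -/
theorem even_of_plus (hr : r.Prime) (hr2 : r ≠ 2) (hq : Fintype.card F = q) (hi : i = orderOf (q : ZMod r))
    (he : Even i) (hi0 : 0 < i) (Q : QuadraticForm F V) {T : Module.End F V} (hT : T ^ r = 1)
    (hQT : ∀ v, Q (T v) = Q v) (hfix : ∀ v, T v = v → v = 0) {k A : ℕ} (hA : 2 * k = A * i)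
    (e : V ≃ₗ[F] (Fin k ⊕ Fin k → F)) (hQe : ∀ v, Q v = Cfsg.quadFormPlus k F (e v)) : Even A := by
  haveI : Fact r.Prime := ⟨hr⟩
  rcases Nat.eq_zero_or_pos k with rfl | hk
  · have : A = 0 := (mul_eq_zero.1 hA.symm).resolve_right hi0.ne'
    simp [this]
  obtain ⟨k, rfl⟩ := Nat.exists_eq_add_of_le' hk
  have hZ := card_zeros_eq_one Q hT hQT hfix
  rw [Nat.card_congr (e.toEquiv.subtypeEquiv (q := fun x => Cfsg.quadFormPlus (k + 1) F x = 0) fun v => by simp [hQe]),
    Classical.card_zeros_form_congr _ (Classical.plusQF (k + 1) F) (Classical.plusQF_apply _) (Classical.plusEquiv (k + 1))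
      (Classical.plusEquiv_spec (k + 1))] at hZ
  have h := congrArg (Nat.cast : ℕ → ZMod r) (Classical.card_zeros_hypExt_plus (F := F) k)
  rw [Nat.card_eq_fintype_card (α := F), hq] at h
  push_cast at h
  rw [hZ] at h
  have hP : ((q : ZMod r) ^ (k + 1)) ^ 2 = 1 := by
    rw [← pow_mul, mul_comm, hA, mul_comm, hi, pow_mul, pow_orderOf_eq_one, one_pow]
  have hq1 : (q : ZMod r) ≠ 1 := fun e1 => by
    rw [hi, e1, orderOf_one] at he
    exact absurd he (by decide)
  have key : ((q : ZMod r) - 1) * ((q : ZMod r) ^ (k + 1) - 1) = 0 := by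
    linear_combination -((q : ZMod r) * h) - hP
  have h1 : i ∣ k + 1 := hi ▸ orderOf_dvd_of_pow_eq_one (sub_eq_zero.1 ((mul_eq_zero.1 key).resolve_left (sub_ne_zero.2 hq1)))
  obtain ⟨c, hc⟩ := h1
  exact ⟨c, Nat.eq_of_mul_eq_mul_right hi0 (by rw [← hA, hc]; ring)⟩

/-- An elliptic space carrying such an isometry has `i` even and an odd number of blocks. -/
theorem odd_of_minus (hr : r.Prime) (hr2 : r ≠ 2) (Φ : Fac F r i) (hq : Fintype.card F = q) (hi : i = orderOf (q : ZMod r))
    (hi0 : 0 < i) (Q : QuadraticForm F V) (hQ : (polarBilin Q).Nondegenerate) {T : Module.End F V}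
    (hT : T ^ r = 1) (hQT : ∀ v, Q (T v) = Q v) (hfix : ∀ v, T v = v → v = 0) {k A : ℕ}
    (hA : 2 * k + 2 = A * i) {a b : F} (hab : Forms.BinaryAniso a b)
    (e : V ≃ₗ[F] ((Fin k ⊕ Fin k) ⊕ Fin 2 → F)) (hQe : ∀ v, Q v = Cfsg.quadFormMinus k F a b (e v)) :
    Even i ∧ Odd A := by
  haveI : Fact r.Prime := ⟨hr⟩
  have hev : Even i := by
    rw [← Nat.not_odd_iff_even]
    intro ho
    obtain ⟨U, hU, hd⟩ := exists_half_singular hr Φ ho Q hQ hT hQT hfix
    have h1 := Forms.finrank_le_of_vanishes_quadFormMinus hab (U.map e.toLinearMap) (by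
      rintro _ ⟨u, hu, rfl⟩
      exact (hQe u).symm.trans (hU u hu))
    rw [LinearEquiv.finrank_map_eq] at h1
    rw [e.finrank_eq, Module.finrank_pi] at hd
    simp at hd
    omega
  refine ⟨hev, Nat.not_even_iff_odd.1 fun hAe => ?_⟩
  have hZ := card_zeros_eq_one Q hT hQT hfix
  rw [Nat.card_congr (e.toEquiv.subtypeEquiv (q := fun x => Cfsg.quadFormMinus k F a b x = 0) fun v => by simp [hQe]),
    Classical.card_zeros_form_congr _ (Classical.minusQF k a b) (Classical.minusQF_apply _ _ _) (Classical.minusEquiv k)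
      (Classical.minusEquiv_spec k a b)] at hZ
  have h := congrArg (Nat.cast : ℕ → ZMod r) (Classical.card_zeros_hypExt_minus (F := F) k (Classical.anisotropic_binQF hab))
  rw [Nat.card_eq_fintype_card (α := F), hq] at h
  push_cast at h
  rw [hZ] at h
  obtain ⟨c, hc⟩ := hAe
  have hk : k + 1 = c * i := by rw [hc, add_mul] at hA; omega
  have hP : (q : ZMod r) ^ (k + 1) = 1 := by
    rw [hk, mul_comm, hi, pow_mul, pow_orderOf_eq_one, one_pow]
  have key : ((q : ZMod r) - 1) * ((q : ZMod r) ^ (k + 1) + 1) = 0 := by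
    linear_combination (q : ZMod r) * h + ((q : ZMod r) ^ (k + 1) + 1) * hP
  have hq1 : (q : ZMod r) ≠ 1 := fun e1 => by
    rw [hi, e1, orderOf_one] at hev
    exact absurd hev (by decide)
  have h2 := (mul_eq_zero.1 key).resolve_left (sub_ne_zero.2 hq1)
  rw [hP] at h2
  have h6 : ((2 : ℕ) : ZMod r) = 0 := by push_cast; linear_combination h2
  rw [CharP.cast_eq_zero_iff (ZMod r) r] at h6
  exact hr2 ((Nat.prime_dvd_prime_iff_eq hr Nat.prime_two).1 h6)

end Cfsg.Agent.PrimeSO
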