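import Cfsg.Agent.PrimeSO.Model
import Cfsg.Agent.PrimeSO.Type
import Cfsg.Agent.ClassConj.FormConj
import Cfsg.Agent.SympSub.Iso
import Cfsg.Agent.Forms.Restrict

/-!
Gluing an isometry without fixed vectors to an identity block.
-/

set_option autoImplicit false
set_option linter.all false

namespace Cfsg.Agent.PrimeSO

open Polynomial Module QuadraticMap

variable {F : Type*} [Field F] {V W U : Type*} [AddCommGroup V] [Module F V] [AddCommGroup W] [Module F W]
  [AddCommGroup U] [Module F U] {r i : ℕ}

theorem eval_one_ne_zero (Φ : Fac F r i) (f : Φ.s) : (f : F[X]).eval 1 ≠ 0 := fun h => by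
  classical
  have h1 : (X - 1 : F[X]) ∣ (f : F[X]) := by simpa using dvd_iff_isRoot.2 h
  have h2 := (Φ.cop _ (Finset.mem_insert_self _ _) f (Finset.mem_insert_of_mem f.2)
    (fun e => Φ.hX (e ▸ f.2))).isUnit_of_dvd' dvd_rfl h1
  exact (irreducible_X_sub_C (1 : F)).not_isUnit (by simpa using h2)

theorem aeval_one_end (g : F[X]) (w : W) : aeval (1 : Module.End F W) g w = g.eval 1 • w := by
  induction g using Polynomial.induction_on' with
  | add a b ha hb => simp [ha, hb, add_smul]
  | monomial k c => simp [aeval_monomial]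

/-- The map `T × 1` transported along an equivalence. -/
theorem exists_glue [FiniteDimensional F U] (Φ : Fac F r i) {T : Module.End F V} (hT : T ^ r = 1)
    (E : (V × W) ≃ₗ[F] U) :
    ∃ S : Module.End F U, S ^ r = 1 ∧ (∀ v w, S (E (v, w)) = E (T v, w)) ∧
      ∀ f : Φ.s, kd S (f : F[X]) = kd T (f : F[X]) := by
  let S0 : Module.End F (V × W) := T.prodMap 1
  have hS0 : ∀ (g : F[X]) (x : V × W), aeval S0 g x = (aeval T g x.1, aeval (1 : Module.End F W) g x.2) := by
    intro g
    induction g using Polynomial.induction_on' with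
    | add a b ha hb => intro x; simp [ha, hb]
    | monomial k c =>
      have hk : ∀ (k : ℕ) (x : V × W), (S0 ^ k) x = ((T ^ k) x.1, x.2) := by
        intro k
        induction k with
        | zero => intro x; simp
        | succ k ih => intro x; rw [pow_succ', Module.End.mul_apply, ih, pow_succ']; simp [S0]
      intro x
      simp [aeval_monomial, hk]
  let S : Module.End F U := E.toLinearMap.comp (S0.comp E.symm.toLinearMap)
  have hSE : ∀ x, E (S0 x) = S (E x) := fun x => by simp [S]
  have hSg : ∀ (g : F[X]) x, E (aeval S0 g x) = aeval S g (E x) := ClassConj.aeval_intertwine E.toLinearMap hSE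
  refine ⟨S, ?_, fun v w => (hSE (v, w)).symm, fun f => ?_⟩
  · refine LinearMap.ext fun u => ?_
    obtain ⟨x, rfl⟩ := E.surjective u
    have h := hSg (X ^ r) x
    rw [hS0] at h
    simp [hT] at h
    simpa using h.symm
  · have h1 := eval_one_ne_zero Φ f
    let L : V →ₗ[F] U := E.toLinearMap.comp (LinearMap.inl F V W)
    have hL : Function.Injective L := fun a b h => congrArg Prod.fst (E.injective h)
    have hk : LinearMap.ker (aeval S (f : F[X])) = (LinearMap.ker (aeval T (f : F[X]))).map L := by
      ext u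
      obtain ⟨⟨v, w⟩, rfl⟩ := E.surjective u
      rw [LinearMap.mem_ker, ← hSg, hS0, Submodule.mem_map]
      simp only [map_eq_zero_iff E E.injective, Prod.mk_eq_zero, aeval_one_end, smul_eq_zero, h1, false_or]
      constructor
      · rintro ⟨hv, rfl⟩; exact ⟨v, hv, rfl⟩
      · rintro ⟨v', hv', h⟩
        obtain ⟨rfl, rfl⟩ := Prod.ext_iff.1 (E.injective h)
        exact ⟨hv', rfl⟩
    rw [kd, kd, hk]
    exact (Submodule.equivMapOfInjective L hL _).finrank_eq.symm

/-- An endomorphism of finite order as an equivalence. -/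
noncomputable def toEquivOfPow (T : Module.End F V) (hr : 0 < r) (hT : T ^ r = 1) : V ≃ₗ[F] V :=
  LinearEquiv.ofLinearMap T (T ^ (r - 1))
    (by rw [← Module.End.mul_eq_comp, ← pow_succ', Nat.sub_add_cancel hr, hT]; rfl)
    (by rw [← Module.End.mul_eq_comp, ← pow_succ, Nat.sub_add_cancel hr, hT]; rfl)

theorem toEquivOfPow_apply (T : Module.End F V) (hr : 0 < r) (hT : T ^ r = 1) (v : V) :
    toEquivOfPow T hr hT v = T v := rfl

/-- A full set of blocks leaves no fixed vector. -/
theorem fixfree_of_full [FiniteDimensional F V] (Φ : Fac F r i) {T : Module.End F V} (hT : T ^ r = 1)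
    (a : Φ.s → ℕ) (ha : ∀ f : Φ.s, kd T (f : F[X]) = a f * i) (h : (∑ f, a f) * i = finrank F V) :
    ∀ v, T v = v → v = 0 := by
  classical
  intro v hv
  have hd := kd_dims Φ hT
  rw [Finset.sum_congr rfl fun f _ => ha f, ← Finset.sum_mul, h] at hd
  have h0 : kd T (X - 1 : F[X]) = 0 := by omega
  have hv' : v ∈ LinearMap.ker (aeval T (X - 1 : F[X])) := by simp [hv]
  rwa [Submodule.finrank_eq_zero.1 h0, Submodule.mem_bot] at hv'

theorem sum_mul_le [FiniteDimensional F V] (Φ : Fac F r i) {T : Module.End F V} (hT : T ^ r = 1)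
    (a : Φ.s → ℕ) (ha : ∀ f : Φ.s, kd T (f : F[X]) = a f * i) : (∑ f, a f) * i ≤ finrank F V := by
  classical
  have hd := kd_dims Φ hT
  rw [Finset.sum_congr rfl fun f _ => ha f, ← Finset.sum_mul] at hd
  omega

/-- The polar form of an orthogonal sum. -/
theorem polar_prod_nondegenerate {Q : QuadraticForm F V} {R : QuadraticForm F W}
    (hQ : (polarBilin Q).Nondegenerate) (hR : (polarBilin R).Nondegenerate) :
    (polarBilin (Q.prod R)).Nondegenerate := by
  have hs : ∀ x y, polarBilin (Q.prod R) x y = polarBilin (Q.prod R) y x := fun x y => polar_comm _ _ _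
  have h1 : ∀ x : V × W, (∀ y, polarBilin (Q.prod R) x y = 0) → x = 0 := fun x hx => Prod.ext
    (hQ.1 _ fun v => by
      have := hx (v, 0)
      simpa [polar] using this)
    (hR.1 _ fun w => by
      have := hx (0, w)
      simpa [polar] using this)
  exact ⟨h1, fun y hy => h1 y fun x => (hs y x).trans (hy x)⟩

theorem polar_nondegenerate_of_equiv {Q : QuadraticForm F V} {R : QuadraticForm F W} (e : V ≃ₗ[F] W)
    (h : ∀ v, R (e v) = Q v) (hR : (polarBilin R).Nondegenerate) : (polarBilin Q).Nondegenerate := by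
  have hp : ∀ u v, polarBilin Q u v = polarBilin R (e u) (e v) := fun u v => by
    simp [polar, ← h]
  refine ⟨fun x hx => e.map_eq_zero_iff.1 (hR.1 _ fun w => ?_), fun y hy => e.map_eq_zero_iff.1 (hR.2 _ fun w => ?_)⟩
  · obtain ⟨v, rfl⟩ := e.surjective w
    rw [← hp, hx]
  · obtain ⟨v, rfl⟩ := e.surjective w
    rw [← hp, hy]

theorem polar_nondegenerate_of_two {Q : QuadraticForm F V} (h2 : (2 : F) ≠ 0) (hA : ∀ v, Q v = 0 → v = 0) :
    (polarBilin Q).Nondegenerate := by
  have h : ∀ x, polarBilin Q x x = 0 → x = 0 := fun x hx => hA x (by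
    simp [polar_self] at hx
    exact hx.resolve_left h2)
  exact ⟨fun x hx => h x (hx x), fun y hy => h y (hy y)⟩

theorem binQF_polar_nondegenerate {a b : F} [Finite F] (hA : Forms.BinaryAniso a b) :
    (polarBilin (Classical.binQF a b)).Nondegenerate := by
  have hdet := Classical.binDisc_ne_zero (Classical.anisotropic_binQF hA)
  have key : ∀ z : Fin 2 → F, (∀ y, polar (Classical.binQF a b) z y = 0) → z = 0 := fun z hz => by
    have h0 := hz ![1, 0]
    have h1 := hz ![0, 1]
    simp [Classical.polar_binQF] at h0 h1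
    have e0 : z 0 * (a ^ 2 - 4 * b) = 0 := by linear_combination -(2 * b) * h0 + a * h1
    have e1 : z 1 * (a ^ 2 - 4 * b) = 0 := by linear_combination a * h0 - 2 * h1
    funext k
    fin_cases k
    · exact (mul_eq_zero.1 e0).resolve_right hdet
    · exact (mul_eq_zero.1 e1).resolve_right hdet
  exact ⟨key, fun y hy => key y fun x => (polar_comm _ _ _).trans (hy x)⟩

theorem plusQF_polar_nondegenerate (m : ℕ) : (polarBilin (Classical.plusQF m F)).Nondegenerate := by
  have key : ∀ x : Fin m ⊕ Fin m → F, (∀ y, polar (Classical.plusQF m F) x y = 0) → x = 0 := fun x hx => by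
    funext k
    rcases k with k | k
    · have h := hx (Pi.single (Sum.inr k) 1)
      simp [polar, Classical.plusQF_apply, Cfsg.quadFormPlus, Pi.single_apply, mul_add,
        Finset.sum_add_distrib] at h
      simpa using h
    · have h := hx (Pi.single (Sum.inl k) 1)
      simp [polar, Classical.plusQF_apply, Cfsg.quadFormPlus, Pi.single_apply, add_mul,
        Finset.sum_add_distrib] at h
      simpa using h
  exact ⟨key, fun y hy => key y fun x => (polar_comm _ _ _).trans (hy x)⟩

theorem minusQF_polar_nondegenerate [Finite F] (m : ℕ) {a b : F} (hA : Forms.BinaryAniso a b) :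
    (polarBilin (Classical.minusQF m a b)).Nondegenerate :=
  polar_nondegenerate_of_equiv (Classical.minusEquiv m) (Classical.minusEquiv_spec m a b)
    (polar_prod_nondegenerate (plusQF_polar_nondegenerate m) (binQF_polar_nondegenerate hA))

theorem oddQF_polar_nondegenerate (h2 : (2 : F) ≠ 0) (m : ℕ) :
    (polarBilin (Classical.oddQF m F)).Nondegenerate :=
  polar_nondegenerate_of_equiv (Classical.oddEquiv m)
    (fun v => Classical.oddEquiv_spec m v)
    (polar_prod_nondegenerate (plusQF_polar_nondegenerate m)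
      (polar_nondegenerate_of_two h2 fun v hv => Classical.anisotropic_sqQF v hv))

/-- Hyperbolic spaces add. -/
def plusJoin (k j : ℕ) :
    ((Fin k ⊕ Fin k → F) × (Fin j ⊕ Fin j → F)) ≃ₗ[F] (Fin (k + j) ⊕ Fin (k + j) → F) where
  toFun x := Sum.elim (Fin.append (fun a => x.1 (.inl a)) (fun b => x.2 (.inl b)))
    (Fin.append (fun a => x.1 (.inr a)) (fun b => x.2 (.inr b)))
  invFun v := (Sum.elim (fun a => v (.inl (Fin.castAdd j a))) (fun a => v (.inr (Fin.castAdd j a))),
    Sum.elim (fun b => v (.inl (Fin.natAdd k b))) (fun b => v (.inr (Fin.natAdd k b))))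
  map_add' x y := by
    funext c
    rcases c with c | c <;>
      (induction c using Fin.addCases <;> simp)
  map_smul' a x := by
    funext c
    rcases c with c | c <;>
      (induction c using Fin.addCases <;> simp)
  left_inv x := by
    refine Prod.ext (funext fun c => ?_) (funext fun c => ?_) <;> rcases c with c | c <;> simp
  right_inv v := by
    funext c
    rcases c with c | c <;>
      (induction c using Fin.addCases <;> simp)

theorem plusJoin_spec (k j : ℕ) (x : (Fin k ⊕ Fin k → F) × (Fin j ⊕ Fin j → F)) :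
    Cfsg.quadFormPlus (k + j) F (plusJoin k j x) = Cfsg.quadFormPlus k F x.1 + Cfsg.quadFormPlus j F x.2 := by
  simp [Cfsg.quadFormPlus, plusJoin, Fin.sum_univ_add]

/-- Hyperbolic plus elliptic is elliptic. -/
def minusJoin (k j : ℕ) :
    ((Fin k ⊕ Fin k → F) × ((Fin j ⊕ Fin j) ⊕ Fin 2 → F)) ≃ₗ[F] ((Fin (k + j) ⊕ Fin (k + j)) ⊕ Fin 2 → F) where
  toFun x := Sum.elim (plusJoin k j (x.1, fun c => x.2 (.inl c))) (fun z => x.2 (.inr z))
  invFun v := (((plusJoin k j).symm (fun c => v (.inl c))).1,
    Sum.elim ((plusJoin k j).symm (fun c => v (.inl c))).2 (fun z => v (.inr z)))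
  map_add' x y := by
    have h : plusJoin k j ((x + y).1, fun c => (x + y).2 (.inl c)) =
        plusJoin k j (x.1, fun c => x.2 (.inl c)) + plusJoin k j (y.1, fun c => y.2 (.inl c)) := by
      rw [← map_add]; rfl
    rw [h]; funext c; rcases c with c | c <;> rfl
  map_smul' a x := by
    have h : plusJoin k j ((a • x).1, fun c => (a • x).2 (.inl c)) = a • plusJoin k j (x.1, fun c => x.2 (.inl c)) := by
      rw [← map_smul]; rfl
    rw [h]; funext c; rcases c with c | c <;> rfl
  left_inv x := by
    refine Prod.ext ?_ (funext fun c => ?_)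
    · simp
    · rcases c with c | c <;> simp
  right_inv v := by
    funext c
    rcases c with c | c <;> simp

theorem minusJoin_spec (k j : ℕ) (a b : F) (x : (Fin k ⊕ Fin k → F) × ((Fin j ⊕ Fin j) ⊕ Fin 2 → F)) :
    Cfsg.quadFormMinus (k + j) F a b (minusJoin k j x) =
      Cfsg.quadFormPlus k F x.1 + Cfsg.quadFormMinus j F a b x.2 := by
  have h := plusJoin_spec k j (x.1, fun c => x.2 (.inl c))
  simp only [Cfsg.quadFormPlus] at h
  simp only [Cfsg.quadFormMinus, Cfsg.quadFormPlus, minusJoin, LinearEquiv.coe_mk, LinearMap.coe_mk, AddHom.coe_mk,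
    Sum.elim_inl, Sum.elim_inr, h, add_assoc]

/-- Two elliptic spaces give a hyperbolic one. -/
theorem exists_minus_minus [Fintype F] [FiniteDimensional F V] (Q : QuadraticForm F V)
    (hQ : (polarBilin Q).Nondegenerate) {k j : ℕ} {a b a' b' : F} (hab : Forms.BinaryAniso a b)
    (hab' : Forms.BinaryAniso a' b')
    (e : V ≃ₗ[F] ((Fin k ⊕ Fin k) ⊕ Fin 2 → F)) (he : ∀ v, Q v = Cfsg.quadFormMinus k F a b (e v)) :
    ∃ E : (V × ((Fin j ⊕ Fin j) ⊕ Fin 2 → F)) ≃ₗ[F] (Fin (k + j + 2) ⊕ Fin (k + j + 2) → F),
      ∀ x, Cfsg.quadFormPlus (k + j + 2) F (E x) = Q x.1 + Cfsg.quadFormMinus j F a' b' x.2 := by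
  obtain ⟨J, hJ⟩ : ∃ J : (Fin 2 → F) ≃ₗ[F] (Fin 2 → F), ∀ z,
      Classical.binQF a' b' (J z) = - Classical.binQF a b z := by
    obtain ⟨a'', b'', e0, hA'', he0⟩ := Forms.exists_binary_normal_form (-(Classical.binQF a b))
      (fun v hv => (Classical.anisotropic_binQF hab) v (neg_eq_zero.1 hv)) (Module.finrank_fin_fun F)
    obtain ⟨T, hT⟩ := Forms.exists_binary_aniso_equiv hA'' hab'
    refine ⟨e0.trans T, fun z => ?_⟩
    rw [Classical.binQF_apply, LinearEquiv.trans_apply, hT, ← he0]
    rfl
  let P : QuadraticForm F (V × ((Fin j ⊕ Fin j) ⊕ Fin 2 → F)) := Q.prod (Classical.minusQF j a' b')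
  have hP : (polarBilin P).Nondegenerate := polar_prod_nondegenerate hQ (minusQF_polar_nondegenerate j hab')
  have hdim : finrank F (V × ((Fin j ⊕ Fin j) ⊕ Fin 2 → F)) = 2 * (k + j + 2) := by
    rw [Module.finrank_prod, e.finrank_eq, Module.finrank_pi, Module.finrank_pi]
    simp; omega
  let L : ((Fin k → F) × (Fin j → F) × (Fin 2 → F)) →ₗ[F] (V × ((Fin j ⊕ Fin j) ⊕ Fin 2 → F)) :=
    { toFun := fun x => (e.symm (Sum.elim (Sum.elim x.1 0) x.2.2), Sum.elim (Sum.elim x.2.1 0) (J x.2.2))
      map_add' := fun x y => by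
        simp only [Prod.fst_add, Prod.snd_add, map_add, Prod.mk_add_mk, ← Sum.elim_add_add, add_zero, ← map_add e.symm]
      map_smul' := fun c x => by
        refine Prod.ext ?_ ?_
        · show e.symm _ = c • e.symm _
          rw [← map_smul]
          congr 1
          funext z; rcases z with (z | z) | z <;> simp
        · funext z; rcases z with (z | z) | z <;> simp }
  have hLi : Function.Injective L := fun x y h => by
    obtain ⟨h1, h2⟩ := Prod.ext_iff.1 h
    have h3 := e.symm.injective h1
    refine Prod.ext (funext fun z => congrFun h3 (.inl (.inl z))) (Prod.ext (funext fun z => congrFun h2 (.inl (.inl z)))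
      (funext fun z => congrFun h3 (.inr z)))
  obtain ⟨l, h⟩ := Forms.exists_finite_witt_decomposition P (Forms.nonsingOn_top_of_nondegenerate hP)
  rcases h with ⟨hl, E, hE⟩ | ⟨hl, -⟩ | ⟨hl, c, d, hcd, E, hE⟩
  · obtain rfl : l = k + j + 2 := by omega
    refine ⟨E, fun x => ?_⟩
    rw [← hE]; simp [P, Classical.minusQF_apply]
  · omega
  · exfalso
    have h1 := Forms.finrank_le_of_vanishes_quadFormMinus hcd (LinearMap.range (E.toLinearMap.comp L)) (by
      rintro _ ⟨x, rfl⟩
      rw [LinearMap.comp_apply, LinearEquiv.coe_coe, ← hE]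
      have hz := hJ x.2.2
      simp only [Classical.binQF_apply] at hz
      simp [P, L, he, Classical.minusQF_apply, Cfsg.quadFormMinus]
      linear_combination hz)
    rw [LinearMap.finrank_range_of_inj (f := E.toLinearMap.comp L) (fun u w h => hLi (E.injective h)), Module.finrank_prod, Module.finrank_prod,
      Module.finrank_fin_fun, Module.finrank_fin_fun, Module.finrank_fin_fun] at h1
    omega

end Cfsg.Agent.PrimeSO
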