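import Cfsg.Agent.PrimeSO.Glue

/-!
Classes of elements of odd prime order in symplectic and orthogonal groups.
-/

set_option autoImplicit false
set_option linter.all false

namespace Cfsg.Agent.PrimeSO

open Polynomial Module QuadraticMap

variable {F : Type*} [Field F] [Fintype F] {r i : ℕ}

/-- Endomorphism attached to an element of a symplectic group. -/
noncomputable def spRho (m : ℕ) : Matrix.symplecticGroup (Fin m) F →* Module.End F (Fin m ⊕ Fin m → F) where
  toFun g := ((SympSub.spEquiv m F g).1 : (Fin m ⊕ Fin m → F) ≃ₗ[F] _).toLinearMap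
  map_one' := by rw [map_one]; rfl
  map_mul' g h := by rw [map_mul]; rfl

/-- Endomorphism attached to an element of an isometry group. -/
noncomputable def orRho {ι : Type} [Fintype ι] [DecidableEq ι] (f : (ι → F) → F) (Q : QuadraticForm F (ι → F))
    (hQ : ∀ v, Q v = f v) : Cfsg.isometryGroup F f →* Module.End F (ι → F) where
  toFun g := ((Classical.isometryGroupEquiv f Q hQ g).1 : (ι → F) ≃ₗ[F] _).toLinearMap
  map_one' := by rw [map_one]; rfl
  map_mul' g h := by rw [map_mul]; rfl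

theorem natCast_r_ne_zero {p : ℕ} [Fact p.Prime] [CharP F p] (hr : r.Prime) (hrp : r ≠ p) : (r : F) ≠ 0 := by
  rw [Ne, CharP.cast_eq_zero_iff F p]
  exact fun h => hrp ((Nat.prime_dvd_prime_iff_eq Fact.out hr).1 h).symm

theorem iterate_eq_of_pow {V : Type*} [AddCommGroup V] [Module F V] (T : V ≃ₗ[F] V) (k : ℕ) (v : V) :
    (T^[k]) v = (T.toLinearMap ^ k) v := by
  rw [Module.End.pow_apply]; rfl

theorem card_symp {p m : ℕ} [Fact p.Prime] [CharP F p] (hr : r.Prime) (hr2 : r ≠ 2) (hrp : r ≠ p) (hi0 : 0 < i)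
    (Φ : Fac F r i) {t : ℕ} (ht : t * i = r - 1) :
    Nat.card {C : ConjClasses ↥(Matrix.symplecticGroup (Fin m) F) // ∃ g : Matrix.symplecticGroup (Fin m) F,
      ConjClasses.mk g = C ∧ orderOf g = r} =
      (if Odd i then Nat.choose (2 * m / i / 2 + t / 2) (t / 2) else Nat.choose (2 * m / i + t) t) - 1 := by
  classical
  rw [← card_tuples Φ hi0 ht (2 * m / i)]
  have hr0 := natCast_r_ne_zero (F := F) hr hrp
  have hB := Forms.sympBil_nondegenerate (m := m) (F := F)
  have hinvB : ∀ x : Matrix.symplecticGroup (Fin m) F, ∀ u v,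
      Forms.sympBil m F (spRho m x u) (spRho m x v) = Forms.sympBil m F u v := fun x => (SympSub.spEquiv m F x).2
  refine card_classes hr hi0 Φ (spRho m) ?_ _ ?_ ?_ ?_
  · intro g h e
    exact (SympSub.spEquiv m F).injective (Subtype.ext (LinearEquiv.toLinearMap_injective e))
  · rintro x y hx hy ⟨E, hE⟩
    obtain ⟨f, hf, hfB⟩ := ClassConj.exists_symplectic_intertwiner Forms.sympBil_isAlt hB Forms.sympBil_isAlt hB
      (T := ((SympSub.spEquiv m F x).1 : (Fin m ⊕ Fin m → F) ≃ₗ[F] _))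
      (T' := ((SympSub.spEquiv m F y).1 : (Fin m ⊕ Fin m → F) ≃ₗ[F] _))
      (SympSub.spEquiv m F x).2 (SympSub.spEquiv m F y).2 (g := E) hE hr0 (fun v => by
        rw [iterate_eq_of_pow]
        show (spRho m x ^ r) v = v
        rw [← map_pow, hx, map_one]; rfl)
    refine isConj_iff.2 ⟨(SympSub.spEquiv m F).symm ⟨f, hfB⟩, (SympSub.spEquiv m F).injective ?_⟩
    rw [map_mul, map_mul, map_inv, MulEquiv.apply_symm_apply, mul_inv_eq_iff_eq_mul]
    exact Subtype.ext (LinearEquiv.ext hf)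
  · intro x hx a ha
    have hT : spRho m x ^ r = 1 := by rw [← map_pow, hx, map_one]
    refine ⟨fun f => Nat.eq_of_mul_eq_mul_right hi0 ?_, (Nat.le_div_iff_mul_le hi0).2 ?_⟩
    · rw [← ha, ← ha, kd_tau Φ hr.pos _ hB (hinvB x) hT]
    · have := sum_mul_le Φ hT a ha
      rw [Module.finrank_pi, Fintype.card_sum, Fintype.card_fin] at this
      omega
  · rintro a ⟨hinv, hle⟩
    obtain ⟨K, hK⟩ : ∃ K, K = (∑ f, a f) * i := ⟨_, rfl⟩
    obtain ⟨T, Q, H, hT, hfix, hkd, hQT, hQ, hHa, hH, hHT⟩ := exists_model (F := F) (K := K) hr hr2 Φ a hinv hK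
    obtain ⟨k, b, -⟩ := Forms.exists_symplectic_basis hHa hH
    have hk := Module.finrank_eq_card_basis b
    rw [Module.finrank_fin_fun, Fintype.card_sum, Fintype.card_fin] at hk
    have hkm : k ≤ m := by
      have := (Nat.le_div_iff_mul_le hi0).1 hle
      omega
    let B : LinearMap.BilinForm F ((Fin K → F) × (Fin (m - k) ⊕ Fin (m - k) → F)) :=
      H.compl₁₂ (LinearMap.fst F _ _) (LinearMap.fst F _ _) +
        (Forms.sympBil (m - k) F).compl₁₂ (LinearMap.snd F _ _) (LinearMap.snd F _ _)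
    have hBa : B.IsAlt := fun x => by simp [B, hHa x.1, Forms.sympBil_isAlt (m := m - k) (F := F) x.2]
    have key : ∀ x, (∀ y, B x y = 0) → x = 0 := fun x hx => Prod.ext
      (hH.1 _ fun v => by have := hx (v, 0); simpa [B] using this)
      (Forms.sympBil_nondegenerate.1 _ fun w => by have := hx (0, w); simpa [B] using this)
    have hBn : B.Nondegenerate := ⟨key, fun y hy => key y fun x => by
      rw [← LinearMap.IsAlt.neg hBa x y, hy, neg_zero]⟩
    obtain ⟨E, hE⟩ := SympSub.exists_iso_sympBil hBa hBn (k := m) (by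
      rw [Module.finrank_prod, Module.finrank_fin_fun, Module.finrank_pi]; simp; omega)
    obtain ⟨S, hS, hSE, hSd⟩ := exists_glue Φ hT E
    have hSB : ∀ u v, Forms.sympBil m F (S u) (S v) = Forms.sympBil m F u v := fun u v => by
      obtain ⟨⟨u1, u2⟩, rfl⟩ := E.surjective u
      obtain ⟨⟨v1, v2⟩, rfl⟩ := E.surjective v
      rw [hSE, hSE, hE, hE]
      simp [B, hHT]
    let g := (SympSub.spEquiv m F).symm ⟨toEquivOfPow S hr.pos hS, hSB⟩
    have hg : spRho m g = S := by
      show ((SympSub.spEquiv m F g).1 : (Fin m ⊕ Fin m → F) ≃ₗ[F] _).toLinearMap = S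
      rw [MulEquiv.apply_symm_apply]; rfl
    refine ⟨g, (SympSub.spEquiv m F).injective (Subtype.ext (LinearEquiv.toLinearMap_injective ?_)), fun f => by
      rw [hg, hSd, hkd]⟩
    show spRho m (g ^ r) = spRho m 1
    rw [map_pow, hg, hS, map_one]

/-- The count for an orthogonal group in terms of the allowed tuples. -/
theorem card_orth {p : ℕ} [Fact p.Prime] [CharP F p] {ι : Type} [Fintype ι] [DecidableEq ι] (f : (ι → F) → F)
    (Q : QuadraticForm F (ι → F)) (hQf : ∀ v, Q v = f v) (hQ : (polarBilin Q).Nondegenerate)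
    (hr : r.Prime) (hr2 : r ≠ 2) (hrp : r ≠ p) (hi0 : 0 < i) (Φ : Fac F r i) {t : ℕ} (ht : t * i = r - 1) (L : ℕ)
    (hnec : ∀ T : Module.End F (ι → F), T ^ r = 1 → (∀ v, Q (T v) = Q v) → ∀ a : Φ.s → ℕ,
      (∀ j : Φ.s, kd T (j : F[X]) = a j * i) → ∑ j, a j ≤ L)
    (hreal : ∀ (K : ℕ) (T : Module.End F (Fin K → F)) (R : QuadraticForm F (Fin K → F)) (A k : ℕ),
      K = A * i → K = 2 * k → T ^ r = 1 → (∀ v, T v = v → v = 0) → (∀ v, R (T v) = R v) →
      (polarBilin R).Nondegenerate → A ≤ L →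
      ∃ (W : Type) (_ : Fintype W) (X : QuadraticForm F (W → F)) (E : ((Fin K → F) × (W → F)) ≃ₗ[F] (ι → F)) (c : F),
        c ≠ 0 ∧ ∀ x, Q (E x) = c * (R x.1 + X x.2)) :
    Nat.card {C : ConjClasses ↥(Cfsg.isometryGroup F f) // ∃ g : ↥(Cfsg.isometryGroup F f),
      ConjClasses.mk g = C ∧ orderOf g = r} =
      (if Odd i then Nat.choose (L / 2 + t / 2) (t / 2) else Nat.choose (L + t) t) - 1 := by
  classical
  rw [← card_tuples Φ hi0 ht L]
  have hr0 := natCast_r_ne_zero (F := F) hr hrp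
  let e := Classical.isometryGroupEquiv f Q hQf
  have hinv : ∀ (x : Cfsg.isometryGroup F f) v, Q (orRho f Q hQf x v) = Q v := fun x => (e x).2
  refine card_classes hr hi0 Φ (orRho f Q hQf) ?_ _ ?_ ?_ ?_
  · intro g h hh
    exact e.injective (Subtype.ext (LinearEquiv.toLinearMap_injective hh))
  · rintro x y hx hy ⟨E, hE⟩
    obtain ⟨φ, hφQ, hφ⟩ := ClassConj.exists_orthogonal_intertwiner hQ
      (T := ((e x).1 : (ι → F) ≃ₗ[F] _)) (T' := ((e y).1 : (ι → F) ≃ₗ[F] _)) (e x).2 (e y).2 (g := E) hE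
      (hr.odd_of_ne_two hr2) hr0 (fun v => by
        rw [iterate_eq_of_pow]
        show (orRho f Q hQf x ^ r) v = v
        rw [← map_pow, hx, map_one]; rfl)
    refine isConj_iff.2 ⟨e.symm ⟨φ, hφQ⟩, e.injective ?_⟩
    rw [map_mul, map_mul, map_inv, MulEquiv.apply_symm_apply, mul_inv_eq_iff_eq_mul]
    exact Subtype.ext (LinearEquiv.ext hφ)
  · intro x hx a ha
    have hT : orRho f Q hQf x ^ r = 1 := by rw [← map_pow, hx, map_one]
    refine ⟨fun j => Nat.eq_of_mul_eq_mul_right hi0 ?_, hnec _ hT (hinv x) a ha⟩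
    rw [← ha, ← ha, kd_tau Φ hr.pos (polarBilin Q) hQ (fun u v => by simp [polar, ← map_add, hinv]) hT]
  · rintro a ⟨hinva, hle⟩
    obtain ⟨T, R, H, hT, hfix, hkd, hRT, hR, hHa, hH, hHT⟩ :=
      exists_model (F := F) (K := (∑ j, a j) * i) hr hr2 Φ a hinva rfl
    obtain ⟨k, b, -⟩ := Forms.exists_symplectic_basis hHa hH
    have hk := Module.finrank_eq_card_basis b
    rw [Module.finrank_fin_fun, Fintype.card_sum, Fintype.card_fin] at hk
    obtain ⟨W, _, X, E, c, hc, hE⟩ := hreal _ T R _ k rfl (by omega) hT hfix hRT hR hle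
    obtain ⟨S, hS, hSE, hSd⟩ := exists_glue Φ hT E
    have hSQ : ∀ v, Q (S v) = Q v := fun v => by
      obtain ⟨⟨v1, v2⟩, rfl⟩ := E.surjective v
      rw [hSE, hE, hE, hRT]
    let g := e.symm ⟨toEquivOfPow S hr.pos hS, hSQ⟩
    have hg : orRho f Q hQf g = S := by
      show ((e g).1 : (ι → F) ≃ₗ[F] _).toLinearMap = S
      rw [MulEquiv.apply_symm_apply]; rfl
    refine ⟨g, e.injective (Subtype.ext (LinearEquiv.toLinearMap_injective ?_)), fun j => by rw [hg, hSd, hkd]⟩
    show orRho f Q hQf (g ^ r) = orRho f Q hQf 1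
    rw [map_pow, hg, hS, map_one]

variable {p q m t : ℕ} [Fact p.Prime] [CharP F p]

theorem card_orth_odd (hq : Fintype.card F = q) (hodd : Odd q) (hr : r.Prime) (hr2 : r ≠ 2) (hrp : r ≠ p)
    (hi0 : 0 < i) (Φ : Fac F r i) (ht : t * i = r - 1) :
    Nat.card {C : ConjClasses ↥(Cfsg.isometryGroup F (Cfsg.quadFormOdd m F)) //
      ∃ g : ↥(Cfsg.isometryGroup F (Cfsg.quadFormOdd m F)), ConjClasses.mk g = C ∧ orderOf g = r} =
      (if Odd i then Nat.choose ((2 * m + 1) / i / 2 + t / 2) (t / 2) else Nat.choose ((2 * m + 1) / i + t) t) - 1 := by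
  have h2 : (2 : F) ≠ 0 := Classical.two_ne_zero_of_odd (by rw [Nat.card_eq_fintype_card, hq]; exact hodd)
  refine card_orth _ (Classical.oddQF m F) (Classical.oddQF_apply m) (oddQF_polar_nondegenerate h2 m) hr hr2 hrp
    hi0 Φ ht _ (fun T hT hQT a ha => (Nat.le_div_iff_mul_le hi0).2 ?_) ?_
  · have := sum_mul_le Φ hT a ha
    rw [Module.finrank_pi, Fintype.card_sum, Fintype.card_unit, Fintype.card_sum, Fintype.card_fin] at this
    omega
  · intro K T R A k hKA hK hT hfix hRT hR hA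
    have hkm : k ≤ m := by have := (Nat.le_div_iff_mul_le hi0).1 hA; omega
    let P : QuadraticForm F ((Fin K → F) × (Unit ⊕ (Fin (m - k) ⊕ Fin (m - k)) → F)) :=
      R.prod (Classical.oddQF (m - k) F)
    have hP : (polarBilin P).Nondegenerate := polar_prod_nondegenerate hR (oddQF_polar_nondegenerate h2 _)
    have hd : finrank F ((Fin K → F) × (Unit ⊕ (Fin (m - k) ⊕ Fin (m - k)) → F)) = 2 * m + 1 := by
      rw [Module.finrank_prod, Module.finrank_fin_fun, Module.finrank_pi]; simp; omega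
    obtain ⟨l, h⟩ := Forms.exists_finite_witt_decomposition P (Forms.nonsingOn_top_of_nondegenerate hP)
    rcases h with ⟨hl, -⟩ | ⟨hl, c, hc, E, hE⟩ | ⟨hl, -⟩
    · omega
    · obtain rfl : l = m := by omega
      refine ⟨_, inferInstance, Classical.oddQF (l - k) F, E, c⁻¹, inv_ne_zero hc, fun x => ?_⟩
      have h := hE x
      simp only [P, QuadraticMap.prod_apply] at h
      rw [h, Classical.oddQF_apply, ← mul_assoc, inv_mul_cancel₀ hc, one_mul]
    · omega

theorem card_orth_plus (hq : Fintype.card F = q) (hr : r.Prime) (hr2 : r ≠ 2) (hrp : r ≠ p)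
    (hi : i = orderOf (q : ZMod r)) (hi0 : 0 < i) (Φ : Fac F r i) (ht : t * i = r - 1) (L : ℕ)
    (hL : L = if Even i ∧ i ∣ 2 * m ∧ Odd (2 * m / i) then 2 * m / i - 1 else 2 * m / i) :
    Nat.card {C : ConjClasses ↥(Cfsg.isometryGroup F (Cfsg.quadFormPlus m F)) //
      ∃ g : ↥(Cfsg.isometryGroup F (Cfsg.quadFormPlus m F)), ConjClasses.mk g = C ∧ orderOf g = r} =
      (if Odd i then Nat.choose (L / 2 + t / 2) (t / 2) else Nat.choose (L + t) t) - 1 := by
  refine card_orth _ (Classical.plusQF m F) (Classical.plusQF_apply m) (plusQF_polar_nondegenerate m) hr hr2 hrp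
    hi0 Φ ht L ?_ ?_
  · intro T hT hQT a ha
    have h := sum_mul_le Φ hT a ha
    have hfr : finrank F (Fin m ⊕ Fin m → F) = 2 * m := by rw [Module.finrank_pi]; simp; omega
    rw [hfr] at h
    have hle := (Nat.le_div_iff_mul_le hi0).2 h
    rw [hL]
    split_ifs with hc
    · refine Nat.le_sub_one_of_lt (lt_of_le_of_ne hle fun e => ?_)
      have hfull : (∑ j, a j) * i = finrank F (Fin m ⊕ Fin m → F) := by rw [hfr, e, Nat.div_mul_cancel hc.2.1]
      have := even_of_plus hr hr2 hq hi hc.1 hi0 (Classical.plusQF m F) hT hQT (fixfree_of_full Φ hT a ha hfull)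
        (k := m) (A := ∑ j, a j) (by rw [hfull, hfr]) (LinearEquiv.refl F _) (Classical.plusQF_apply m)
      exact Nat.not_even_iff_odd.2 hc.2.2 (e ▸ this)
    · exact hle
  · intro K T R A k hKA hK hT hfix hRT hR hA
    have hA2 : A * i ≤ 2 * m := (Nat.le_div_iff_mul_le hi0).1 (hA.trans (by rw [hL]; split_ifs; exacts [Nat.sub_le _ _, le_rfl]))
    obtain ⟨l, h⟩ := Forms.exists_finite_witt_decomposition R (Forms.nonsingOn_top_of_nondegenerate hR)
    rw [Module.finrank_fin_fun] at h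
    rcases h with ⟨hl, e, he⟩ | ⟨hl, -⟩ | ⟨hl, a, b, hab, e, he⟩
    · obtain rfl : l = k := by omega
      obtain ⟨j, rfl⟩ : ∃ j, m = l + j := ⟨m - l, by omega⟩
      refine ⟨_, inferInstance, Classical.plusQF j F, (e.prodCongr (LinearEquiv.refl F _)).trans (plusJoin l j), 1,
        one_ne_zero, fun x => ?_⟩
      rw [Classical.plusQF_apply, LinearEquiv.trans_apply, plusJoin_spec, LinearEquiv.prodCongr_apply, one_mul,
        Classical.plusQF_apply, he]
      rfl
    · omega
    · obtain ⟨hev, hAo⟩ := odd_of_minus hr hr2 Φ hq hi hi0 R hR hT hRT hfix (k := l) (A := A) (by omega) hab e he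
      have hlt : A * i < 2 * m := by
        refine lt_of_le_of_ne hA2 fun e' => ?_
        have hdiv : 2 * m / i = A := by rw [← e', Nat.mul_div_cancel _ hi0]
        rw [if_pos ⟨hev, Dvd.intro_left A e', hdiv.symm ▸ hAo⟩, hdiv] at hL
        obtain ⟨c, rfl⟩ := hAo
        omega
      obtain ⟨j, rfl⟩ : ∃ j, m = l + j + 2 := ⟨m - l - 2, by omega⟩
      obtain ⟨a', b', hab'⟩ := Forms.exists_binaryAniso (F := F)
      obtain ⟨E, hE⟩ := exists_minus_minus R hR (j := j) hab hab' e he
      refine ⟨_, inferInstance, Classical.minusQF j a' b', E, 1, one_ne_zero, fun x => ?_⟩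
      rw [Classical.plusQF_apply, hE, one_mul, Classical.minusQF_apply]

theorem card_orth_minus (hq : Fintype.card F = q) (hr : r.Prime) (hr2 : r ≠ 2) (hrp : r ≠ p)
    (hi : i = orderOf (q : ZMod r)) (hi0 : 0 < i) (Φ : Fac F r i) (ht : t * i = r - 1) {a c : F}
    (hac : Forms.BinaryAniso a c) (L : ℕ)
    (hL : L = if i ∣ 2 * (m + 1) ∧ (Odd i ∨ Even (2 * (m + 1) / i)) then 2 * (m + 1) / i - 1 else 2 * (m + 1) / i) :
    Nat.card {C : ConjClasses ↥(Cfsg.isometryGroup F (Cfsg.quadFormMinus m F a c)) //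
      ∃ g : ↥(Cfsg.isometryGroup F (Cfsg.quadFormMinus m F a c)), ConjClasses.mk g = C ∧ orderOf g = r} =
      (if Odd i then Nat.choose (L / 2 + t / 2) (t / 2) else Nat.choose (L + t) t) - 1 := by
  refine card_orth _ (Classical.minusQF m a c) (Classical.minusQF_apply m a c) (minusQF_polar_nondegenerate m hac)
    hr hr2 hrp hi0 Φ ht L ?_ ?_
  · intro T hT hQT α ha
    have h := sum_mul_le Φ hT α ha
    have hfr : finrank F ((Fin m ⊕ Fin m) ⊕ Fin 2 → F) = 2 * (m + 1) := by rw [Module.finrank_pi]; simp; omega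
    rw [hfr] at h
    have hle := (Nat.le_div_iff_mul_le hi0).2 h
    rw [hL]
    split_ifs with hc
    · refine Nat.le_sub_one_of_lt (lt_of_le_of_ne hle fun e => ?_)
      have hfull : (∑ j, α j) * i = finrank F ((Fin m ⊕ Fin m) ⊕ Fin 2 → F) := by rw [hfr, e, Nat.div_mul_cancel hc.1]
      obtain ⟨hev, hAo⟩ := odd_of_minus hr hr2 Φ hq hi hi0 _ (minusQF_polar_nondegenerate m hac) hT hQT
        (fixfree_of_full Φ hT α ha hfull) (k := m) (A := ∑ j, α j) (by rw [hfull, hfr]; ring) hac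
        (LinearEquiv.refl F _) (Classical.minusQF_apply m a c)
      rcases hc.2 with ho | he
      · exact Nat.not_even_iff_odd.2 ho hev
      · exact Nat.not_even_iff_odd.2 hAo (e ▸ he)
    · exact hle
  · intro K T R A k hKA hK hT hfix hRT hR hA
    have hA2 : A * i ≤ 2 * (m + 1) := (Nat.le_div_iff_mul_le hi0).1 (hA.trans (by rw [hL]; split_ifs; exacts [Nat.sub_le _ _, le_rfl]))
    obtain ⟨l, h⟩ := Forms.exists_finite_witt_decomposition R (Forms.nonsingOn_top_of_nondegenerate hR)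
    rw [Module.finrank_fin_fun] at h
    rcases h with ⟨hl, e, he⟩ | ⟨hl, -⟩ | ⟨hl, a', b', hab', e, he⟩
    · obtain rfl : l = k := by omega
      have hlt : A * i < 2 * (m + 1) := by
        refine lt_of_le_of_ne hA2 fun e' => ?_
        have hdiv : 2 * (m + 1) / i = A := by rw [← e', Nat.mul_div_cancel _ hi0]
        have hpar : Odd i ∨ Even (2 * (m + 1) / i) := by
          rcases Nat.even_or_odd i with hev | ho
          · exact Or.inr (hdiv.symm ▸ even_of_plus hr hr2 hq hi hev hi0 R hT hRT hfix (k := l) (A := A) (by omega) e he)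
          · exact Or.inl ho
        rw [if_pos ⟨Dvd.intro_left A e', hpar⟩, hdiv] at hL
        have : A ≠ 0 := fun h0 => by rw [h0] at e'; omega
        omega
      obtain ⟨j, rfl⟩ : ∃ j, m = l + j := ⟨m - l, by omega⟩
      refine ⟨_, inferInstance, Classical.minusQF j a c, (e.prodCongr (LinearEquiv.refl F _)).trans (minusJoin l j), 1,
        one_ne_zero, fun x => ?_⟩
      rw [Classical.minusQF_apply, LinearEquiv.trans_apply, minusJoin_spec, LinearEquiv.prodCongr_apply, one_mul,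
        Classical.minusQF_apply, he]
      rfl
    · omega
    · obtain ⟨j, rfl⟩ : ∃ j, m = j + l := ⟨m - l, by omega⟩
      obtain ⟨T', hT'⟩ := Forms.exists_quadFormMinus_equiv hab' hac l
      refine ⟨_, inferInstance, Classical.plusQF j F,
        (LinearEquiv.prodComm F _ _).trans (((LinearEquiv.refl F _).prodCongr (e.trans T')).trans (minusJoin j l)), 1,
        one_ne_zero, fun x => ?_⟩
      rw [Classical.minusQF_apply, LinearEquiv.trans_apply, LinearEquiv.trans_apply, minusJoin_spec,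
        LinearEquiv.prodCongr_apply, one_mul, Classical.plusQF_apply, add_comm, he]
      simp [hT']

end Cfsg.Agent.PrimeSO
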