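import Cfsg.Agent.PrimeSO.Classes

/-!
Arithmetic for the class counts.
-/

set_option autoImplicit false
set_option linter.all false

namespace Cfsg.Agent.PrimeSO

/-- Pascal's rule in the form used for tuples of exact sum. -/
theorem choose_pred {n h : ℕ} (hn : 1 ≤ n) (hh : 1 ≤ h) :
    Nat.choose (n - 1 + h) h + Nat.choose (n + h - 1) (h - 1) = Nat.choose (n + h) h := by
  obtain ⟨n, rfl⟩ := Nat.exists_eq_add_of_le' hn
  obtain ⟨h, rfl⟩ := Nat.exists_eq_add_of_le' hh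
  rw [show n + 1 + (h + 1) = (n + h + 1) + 1 by omega, Nat.choose_succ_succ,
    show n + 1 - 1 + (h + 1) = n + h + 1 by omega, show n + h + 1 + 1 - 1 = n + h + 1 by omega, Nat.add_sub_cancel,
    add_comm]

theorem even_t {r i t : ℕ} (hr : r.Prime) (hr2 : r ≠ 2) (ht : t * i = r - 1) :
    1 ≤ t ∧ (Odd i → 1 ≤ t / 2) := by
  have h3 : 3 ≤ r := by have := hr.two_le; omega
  have ht0 : 1 ≤ t := Nat.one_le_iff_ne_zero.2 fun h => by simp [h] at ht; omega
  refine ⟨ht0, fun ho => ?_⟩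
  obtain ⟨c, hc⟩ := hr.odd_of_ne_two hr2
  have h2 : 2 ∣ t := (Nat.coprime_two_left.2 ho).dvd_of_dvd_mul_right ⟨c, by omega⟩
  have := Nat.le_of_dvd (by omega) h2
  omega

theorem half_div (m i : ℕ) : 2 * m / i / 2 = m / i ∧ (2 * m + 1) / i / 2 = m / i := by
  constructor
  · rw [Nat.div_div_eq_div_mul, mul_comm i 2, Nat.mul_div_mul_left _ _ two_pos]
  · rw [Nat.div_div_eq_div_mul, mul_comm i 2, ← Nat.div_div_eq_div_mul,
      show (2 * m + 1) / 2 = m by omega]

theorem two_mul_div_of_dvd {m i : ℕ} (h : i ∣ m) : 2 * m / i = 2 * (m / i) := Nat.mul_div_assoc 2 h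

end Cfsg.Agent.PrimeSO
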