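import Cfsg.Agent.PrimeSO.Factors
import Cfsg.Agent.UClass.Dual

/-!
Kernel dimensions of an element of order `r` preserving a form, and the resulting count of classes.
-/

set_option autoImplicit false
set_option linter.all false

namespace Cfsg.Agent.PrimeSO

open Polynomial Module

variable {F : Type*} [Field F] {V : Type*} [AddCommGroup V] [Module F V]

/-- The dimension of the kernel of a polynomial in an endomorphism. -/
noncomputable def kd (T : Module.End F V) (f : F[X]) : ℕ := finrank F (LinearMap.ker (aeval T f))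

variable {r i : ℕ}

/-- The kernel of a composite is the kernel at the inverse factor. -/
theorem ker_comp_pow (Φ : Fac F r i) {T : Module.End F V} (hT : T ^ r = 1) (f : Φ.s) :
    LinearMap.ker (aeval (T ^ (r - 1)) (f : F[X])) = LinearMap.ker (aeval T (Φ.tau f : F[X])) := by
  classical
  set g : F[X] := (Φ.tau f : F[X])
  set h := (f : F[X]).comp (X ^ (r - 1))
  have e : aeval (T ^ (r - 1)) (f : F[X]) = aeval T h := by rw [aeval_comp, map_pow, aeval_X]
  rw [e]
  refine le_antisymm (fun v hv => ?_) (fun v hv => ?_)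
  · have hg : g ∈ insert (X - 1 : F[X]) Φ.s := Finset.mem_insert_of_mem (Φ.tau f).2
    set P : F[X] := ∏ k ∈ (insert (X - 1 : F[X]) Φ.s).erase g, k
    have hPg : g * P = X ^ r - 1 := by
      rw [← Φ.prod_eq]
      convert Finset.mul_prod_erase _ (fun k : F[X] => k) hg
    have hcop : IsCoprime P h := IsCoprime.prod_left fun k hk => by
      rcases Finset.mem_insert.1 (Finset.mem_erase.1 hk).2 with rfl | hk'
      · exact Φ.copX f
      · exact Φ.cop_tau f ⟨k, hk'⟩ fun e => (Finset.mem_erase.1 hk).1 (congrArg Subtype.val e)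
    obtain ⟨a, b, hab⟩ := hcop
    have h1 : aeval T (a * P + b * h) (aeval T g v) = aeval T g v := by simp [hab]
    rw [LinearMap.mem_ker, ← h1, map_add, LinearMap.add_apply, ← Module.End.mul_apply,
      ← Module.End.mul_apply, ← map_mul, ← map_mul,
      show a * P * g = a * (g * P) by ring, show b * h * g = b * g * h by ring, hPg,
      map_mul _ (b * g) h, Module.End.mul_apply, LinearMap.mem_ker.1 hv, map_zero, add_zero, map_mul]
    simp [hT]
  · obtain ⟨c, hc⟩ := Φ.dvd_tau f
    rw [LinearMap.mem_ker, show h = c * g by rw [show h = g * c from hc, mul_comm], map_mul,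
      Module.End.mul_apply, LinearMap.mem_ker.1 hv, map_zero]

/-- Adjoints of polynomials in an isometry. -/
theorem aeval_adjoint (B : LinearMap.BilinForm F V) {T T' : Module.End F V}
    (hB : ∀ u v, B (T u) v = B u (T' v)) (f : F[X]) :
    ∀ u v, B (aeval T f u) v = B u (aeval T' f v) := by
  induction f using Polynomial.induction_on' with
  | add a b ha hb => intro u v; simp [map_add, LinearMap.add_apply, ha, hb]
  | monomial k c =>
    have hk : ∀ (k : ℕ) u v, B ((T ^ k) u) v = B u ((T' ^ k) v) := by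
      intro k
      induction k with
      | zero => intro u v; simp
      | succ k ih =>
        intro u v
        rw [pow_succ, Module.End.mul_apply, ih, hB, pow_succ', Module.End.mul_apply]
    intro u v
    simp [aeval_monomial, hk]

theorem adjoint_pow (B : LinearMap.BilinForm F V) {T : Module.End F V} (hr : 0 < r)
    (hB : ∀ u v, B (T u) (T v) = B u v) (hT : T ^ r = 1) :
    ∀ u v, B (T u) v = B u ((T ^ (r - 1)) v) := fun u v => by
  have : T ((T ^ (r - 1)) v) = v := by
    rw [← Module.End.mul_apply, ← pow_succ', Nat.sub_add_cancel hr, hT, Module.End.one_apply]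
  conv_lhs => rw [← this]
  exact hB _ _

/-- The kernels of adjoint maps have the same dimension. -/
theorem finrank_ker_adjoint [FiniteDimensional F V] (B : LinearMap.BilinForm F V) (hB : B.Nondegenerate)
    {A A' : Module.End F V} (hAA : ∀ u v, B (A u) v = B u (A' v)) :
    finrank F (LinearMap.ker A') = finrank F (LinearMap.ker A) := by
  let Φ := B.toDual hB
  have hk : LinearMap.ker A' = (LinearMap.range A).dualAnnihilator.comap (LinearMap.flip B) := by
    ext v
    simp only [LinearMap.mem_ker, Submodule.mem_comap, Submodule.mem_dualAnnihilator]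
    refine ⟨?_, fun h => hB.2 _ fun u => ?_⟩
    · rintro h _ ⟨u, rfl⟩
      simp [hAA, h]
    · rw [← hAA]; exact h _ (LinearMap.mem_range_self _ _)
  have hinj : Function.Injective (LinearMap.flip B) := (injective_iff_map_eq_zero _).2 fun v hv =>
    hB.2 _ fun u => LinearMap.congr_fun hv u
  let E := LinearEquiv.ofBijective (LinearMap.flip B) ⟨hinj,
    (LinearMap.injective_iff_surjective_of_finrank_eq_finrank Subspace.dual_finrank_eq.symm).1 hinj⟩
  rw [hk, show (LinearMap.range A).dualAnnihilator.comap (LinearMap.flip B) =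
      (LinearMap.range A).dualAnnihilator.comap E.toLinearMap from rfl,
    Submodule.comap_equiv_eq_map_symm, LinearEquiv.finrank_map_eq]
  have h1 := Subspace.finrank_add_finrank_dualAnnihilator_eq (LinearMap.range A)
  have h2 := LinearMap.finrank_range_add_finrank_ker A
  exact Nat.add_left_cancel (h1.trans h2.symm)

theorem kd_tau [FiniteDimensional F V] (Φ : Fac F r i) (hr : 0 < r) (B : LinearMap.BilinForm F V) (hB : B.Nondegenerate)
    {T : Module.End F V} (hBT : ∀ u v, B (T u) (T v) = B u v) (hT : T ^ r = 1) (f : Φ.s) :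
    kd T (Φ.tau f : F[X]) = kd T (f : F[X]) := by
  rw [kd, ← ker_comp_pow Φ hT f]
  exact finrank_ker_adjoint B hB (aeval_adjoint B (adjoint_pow B hr hBT hT) _)

theorem kd_congr {W : Type*} [AddCommGroup W] [Module F W] (E : V ≃ₗ[F] W) {T : Module.End F V}
    {S : Module.End F W} (h : ∀ v, E (T v) = S (E v)) (f : F[X]) : kd S f = kd T f := by
  have hE : ∀ v, E (aeval T f v) = aeval S f (E v) := ClassConj.aeval_intertwine E.toLinearMap h f
  refine (LinearEquiv.ofSubmodules E _ _ ?_).finrank_eq.symm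
  ext w
  obtain ⟨v, rfl⟩ := E.surjective w
  simp [Submodule.mem_map, ← hE]

open scoped _root_.Classical in
theorem kd_dims [FiniteDimensional F V] (Φ : Fac F r i) {T : Module.End F V} (hT : T ^ r = 1) :
    kd T (X - 1 : F[X]) + ∑ f : Φ.s, kd T (f : F[X]) = finrank F V := by
  have h := ClassConj.sum_finrank_ker (insert (X - 1 : F[X]) Φ.s) id Φ.cop T (by
    simp only [id_eq, Φ.prod_eq]; simp [hT])
  rw [h, Finset.sum_insert Φ.hX, ← Finset.sum_coe_sort Φ.s (fun f => finrank F (LinearMap.ker (aeval T (id f))))]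
  rfl

open scoped _root_.Classical in
theorem exists_intertwiner {W : Type*} [AddCommGroup W] [Module F W] [FiniteDimensional F V] [FiniteDimensional F W]
    (Φ : Fac F r i) {T : Module.End F V} {S : Module.End F W} (hT : T ^ r = 1) (hS : S ^ r = 1)
    (hfr : finrank F V = finrank F W) (h : ∀ f : Φ.s, kd T (f : F[X]) = kd S (f : F[X])) :
    ∃ E : V ≃ₗ[F] W, ∀ v, E (T v) = S (E v) := by
  have h1 := kd_dims Φ hT
  have h2 := kd_dims Φ hS
  refine ClassConj.exists_intertwiner_of_kerDims (insert (X - 1 : F[X]) Φ.s) id ?_ Φ.cop T S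
    (by simp only [id_eq, Φ.prod_eq]; simp [hT]) (by simp only [id_eq, Φ.prod_eq]; simp [hS]) ?_
  · intro k hk
    rcases Finset.mem_insert.1 hk with rfl | hk
    · simpa using irreducible_X_sub_C (1 : F)
    · exact Φ.irr ⟨k, hk⟩
  · intro k hk
    rcases Finset.mem_insert.1 hk with rfl | hk
    · rw [Finset.sum_congr rfl fun f _ => h f] at h1
      show kd T (X - 1 : F[X]) = kd S (X - 1 : F[X])
      omega
    · exact h ⟨k, hk⟩

theorem dvd_kd [FiniteDimensional F V] (Φ : Fac F r i) (T : Module.End F V) (f : Φ.s) :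
    ∃ a, kd T (f : F[X]) = a * i := by
  obtain ⟨a, ha⟩ := UClass.dvd_finrank_ker T (Φ.irr f)
  exact ⟨a, by rw [kd, ha, Φ.deg, mul_comm]⟩

/-- Counting the classes of elements of order `r` by their kernel dimensions. -/
theorem card_classes [FiniteDimensional F V] {G : Type*} [Group G] (hr : r.Prime) (hi : 0 < i)
    (Φ : Fac F r i) (ρ : G →* Module.End F V) (hinj : Function.Injective ρ) (P : (Φ.s → ℕ) → Prop)
    (hconj : ∀ x y : G, x ^ r = 1 → y ^ r = 1 → (∃ E : V ≃ₗ[F] V, ∀ v, E (ρ x v) = ρ y (E v)) → IsConj x y)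
    (hnec : ∀ x : G, x ^ r = 1 → ∀ a : Φ.s → ℕ, (∀ f : Φ.s, kd (ρ x) (f : F[X]) = a f * i) → P a)
    (hreal : ∀ a, P a → ∃ x : G, x ^ r = 1 ∧ ∀ f : Φ.s, kd (ρ x) (f : F[X]) = a f * i) :
    Nat.card {C : ConjClasses G // ∃ g : G, ConjClasses.mk g = C ∧ orderOf g = r} =
      Nat.card {a : Φ.s → ℕ // P a} - 1 := by
  classical
  choose g hgr hgd using hreal
  have h1 : ∀ f : Φ.s, kd (ρ 1) (f : F[X]) = 0 := fun f => by
    have hz : kd (ρ 1) (X - 1 : F[X]) = finrank F V := by
      have h0 : aeval (ρ 1) (X - 1 : F[X]) = 0 := by simp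
      rw [kd, h0, LinearMap.ker_zero, finrank_top]
    have h := kd_dims Φ (T := ρ 1) (r := r) (by simp)
    have hle : kd (ρ 1) (f : F[X]) ≤ ∑ k : Φ.s, kd (ρ 1) (k : F[X]) :=
      Finset.single_le_sum (f := fun k : Φ.s => kd (ρ 1) (k : F[X])) (fun _ _ => Nat.zero_le _) (Finset.mem_univ f)
    omega
  let T := {a : Φ.s → ℕ // P a}
  let zero : T := ⟨0, hnec 1 (one_pow r) 0 fun f => by rw [h1]; simp⟩
  have hconj' : ∀ x y : G, x ^ r = 1 → y ^ r = 1 → (∀ f : Φ.s, kd (ρ x) (f : F[X]) = kd (ρ y) (f : F[X])) →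
      IsConj x y := fun x y hx hy h => hconj x y hx hy <|
    exists_intertwiner Φ (by rw [← map_pow, hx, map_one]) (by rw [← map_pow, hy, map_one]) rfl h
  have hzero : ∀ a : T, g a.1 a.2 = 1 ↔ a = zero := by
    intro a
    constructor
    · intro h
      refine Subtype.ext (funext fun f => ?_)
      have h2 := hgd a.1 a.2 f
      rw [h, h1] at h2
      exact (mul_eq_zero.1 h2.symm).resolve_right hi.ne'
    · intro h
      exact isConj_one_left.1 (hconj' _ _ (hgr a.1 a.2) (one_pow r) fun f => by
        rw [hgd, h1, h, show zero.1 f = 0 from rfl, zero_mul])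
  let φ : {a : T // a ≠ zero} → {C : ConjClasses G // ∃ g : G, ConjClasses.mk g = C ∧ orderOf g = r} :=
    fun a => ⟨ConjClasses.mk (g a.1.1 a.1.2), g a.1.1 a.1.2, rfl,
      haveI : Fact r.Prime := ⟨hr⟩; orderOf_eq_prime (hgr _ _) fun h => a.2 ((hzero a.1).1 h)⟩
  have hφ : Function.Bijective φ := by
    constructor
    · intro a b h
      refine Subtype.ext (Subtype.ext (funext fun f => ?_))
      obtain ⟨c, hc⟩ := isConj_iff.1 (ConjClasses.mk_eq_mk_iff_isConj.1 (congrArg Subtype.val h))
      let E : V ≃ₗ[F] V := LinearEquiv.ofLinearMap (ρ c) (ρ c⁻¹)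
        (by rw [← Module.End.mul_eq_comp, ← map_mul, mul_inv_cancel, map_one]; rfl)
        (by rw [← Module.End.mul_eq_comp, ← map_mul, inv_mul_cancel, map_one]; rfl)
      have h2 := kd_congr E (T := ρ (g a.1.1 a.1.2)) (S := ρ (g b.1.1 b.1.2)) (fun v => by
        show ρ c (ρ (g a.1.1 a.1.2) v) = ρ (g b.1.1 b.1.2) (ρ c v)
        rw [← Module.End.mul_apply, ← Module.End.mul_apply, ← map_mul, ← map_mul, mul_inv_eq_iff_eq_mul.1 hc]) (f : F[X])
      rw [hgd, hgd] at h2
      exact Nat.eq_of_mul_eq_mul_right hi h2.symm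
    · rintro ⟨C, x, rfl, hx⟩
      have hxr : x ^ r = 1 := by rw [← hx, pow_orderOf_eq_one]
      choose a ha using fun f : Φ.s => dvd_kd Φ (ρ x) f
      have hP : P a := hnec x hxr a ha
      have hc : IsConj (g a hP) x := hconj' _ _ (hgr a hP) hxr fun f => (hgd a hP f).trans (ha f).symm
      refine ⟨⟨⟨a, hP⟩, fun e => ?_⟩, Subtype.ext (ConjClasses.mk_eq_mk_iff_isConj.2 hc)⟩
      have e' : g a hP = 1 := (hzero ⟨a, hP⟩).2 e
      rw [e'] at hc
      rw [isConj_one_right.1 hc, orderOf_one] at hx
      exact hr.one_lt.ne hx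
  rw [← Nat.card_congr (Equiv.ofBijective φ hφ)]
  haveI : Finite T := by
    refine Finite.of_injective (fun a : T => fun f : Φ.s => (⟨a.1 f, Nat.lt_succ_of_le ?_⟩ : Fin (finrank F V + 1))) ?_
    · have h2 := hgd a.1 a.2 f
      have h3 : kd (ρ (g a.1 a.2)) (f : F[X]) ≤ finrank F V := Submodule.finrank_le _
      have := Nat.le_mul_of_pos_right (a.1 f) hi
      omega
    · intro a b h
      exact Subtype.ext (funext fun f => congrArg Fin.val (congrFun h f))
  haveI : Fintype T := Fintype.ofFinite T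
  rw [Nat.card_eq_fintype_card, Fintype.card_subtype_compl, Fintype.card_subtype_eq, ← Nat.card_eq_fintype_card]

open scoped _root_.Classical in
/-- The number of invariant tuples of bounded sum. -/
theorem card_tuples [Fintype F] (Φ : Fac F r i) {t : ℕ} (hi : 0 < i) (ht : t * i = r - 1) (L : ℕ) :
    Nat.card {a : Φ.s → ℕ // (∀ f, a (Φ.tau f) = a f) ∧ ∑ f, a f ≤ L} =
      if Odd i then Nat.choose (L / 2 + t / 2) (t / 2) else Nat.choose (L + t) t := by
  have hst : Fintype.card Φ.s = t := by
    rw [Fintype.card_coe]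
    exact Nat.eq_of_mul_eq_mul_right hi (Φ.card_s.trans ht.symm)
  split_ifs with ho
  · rw [← hst, ← UClass.card_invariant_free Φ.tau Φ.tau_tau (Φ.tau_odd ho) L]
    exact Nat.card_congr (Equiv.subtypeEquivRight fun a => and_comm)
  · have he : Even i := Nat.not_odd_iff_even.1 ho
    rw [← hst, ← ClassConj.card_fun_sum_le]
    exact Nat.card_congr (Equiv.subtypeEquivRight fun a =>
      ⟨fun h => h.2, fun h => ⟨fun f => by rw [Φ.tau_even he f], h⟩⟩)

end Cfsg.Agent.PrimeSO
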