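import Cfsg.Agent.ClassConj.PrimeOrderClasses

/-!
The irreducible factors of `X ^ r - 1` and the permutation induced on them by inversion of roots.
-/

set_option autoImplicit false
set_option linter.all false

namespace Cfsg.Agent.PrimeSO

open Polynomial Module

variable {F : Type*} [Field F] [Fintype F]

open scoped _root_.Classical in
/-- The data attached to the non-trivial factors of `X ^ r - 1`. -/
structure Fac (F : Type*) [Field F] (r i : ℕ) where
  s : Finset F[X]
  tau : s → s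
  hX : (X - 1 : F[X]) ∉ s
  irr : ∀ f : s, Irreducible (f : F[X])
  deg : ∀ f : s, (f : F[X]).natDegree = i
  card_s : s.card * i = r - 1
  cop : ∀ a ∈ insert (X - 1 : F[X]) s, ∀ b ∈ insert (X - 1 : F[X]) s, a ≠ b → IsCoprime a b
  prod_eq : ∏ f ∈ insert (X - 1 : F[X]) s, f = X ^ r - 1
  copX : ∀ f : s, IsCoprime (X - 1 : F[X]) ((f : F[X]).comp (X ^ (r - 1)))
  dvd_tau : ∀ f : s, (tau f : F[X]) ∣ (f : F[X]).comp (X ^ (r - 1))
  cop_tau : ∀ f g : s, g ≠ tau f → IsCoprime (g : F[X]) ((f : F[X]).comp (X ^ (r - 1)))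
  tau_tau : ∀ f : s, tau (tau f) = f
  tau_even : Even i → ∀ f : s, tau f = f
  tau_odd : Odd i → ∀ f : s, tau f ≠ f

theorem dvd_iff_aeval_root {k : F[X]} (h : F[X]) :
    k ∣ h ↔ aeval (AdjoinRoot.root k) h = 0 := by
  rw [AdjoinRoot.aeval_eq, AdjoinRoot.mk_eq_zero]

theorem coprime_of_not_root {k : F[X]} (hk : Irreducible k) {h : F[X]}
    (hn : aeval (AdjoinRoot.root k) h ≠ 0) : IsCoprime k h :=
  hk.coprime_iff_not_dvd.2 fun e => hn ((dvd_iff_aeval_root h).1 e)

theorem exists_fac {p r i : ℕ} [Fact p.Prime] [CharP F p] (hr : r.Prime) (hr2 : r ≠ 2)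
    (hrp : r ≠ p) (hi : i = orderOf ((Fintype.card F : ℕ) : ZMod r)) :
    0 < i ∧ Nonempty (Fac F r i) := by
  classical
  haveI : Fact r.Prime := ⟨hr⟩
  obtain ⟨e, -, hqe⟩ := FiniteField.card F p
  have hrF : (r : F) ≠ 0 := by
    rw [Ne, CharP.cast_eq_zero_iff F p]
    exact fun h => hrp ((Nat.prime_dvd_prime_iff_eq Fact.out hr).1 h).symm
  have hq : ((Fintype.card F : ℕ) : ZMod r) ≠ 0 := by
    rw [Ne, CharP.cast_eq_zero_iff (ZMod r) r, hqe]
    exact fun h => hrp ((Nat.prime_dvd_prime_iff_eq hr Fact.out).1 (hr.dvd_of_dvd_pow h))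
  obtain ⟨s, hX, hirr, hdeg, hcard, hcop, hprod⟩ := ClassConj.exists_factors (F := F) hr hrF hq
  rw [← hi] at hdeg hcard
  have hi0 : 0 < i := hi ▸ (IsUnit.isOfFinOrder (Ne.isUnit hq)).orderOf_pos
  have hr3 : 3 ≤ r := by have := hr.two_le; omega
  have hsq : (r - 1) * (r - 1) = 1 + r * (r - 2) := by
    obtain ⟨k, rfl⟩ : ∃ k, r = k + 3 := ⟨r - 3, by omega⟩
    rw [show k + 3 - 1 = k + 2 by omega, show k + 3 - 2 = k + 1 by omega]; ring
  have hirrX : Irreducible (X - 1 : F[X]) := by simpa using irreducible_X_sub_C (1 : F)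
  have hirrS : ∀ k ∈ insert (X - 1 : F[X]) s, Irreducible k := fun k hk => by
    rcases Finset.mem_insert.1 hk with rfl | hk
    exacts [hirrX, hirr k hk]
  have hpow : ∀ k ∈ insert (X - 1 : F[X]) s, (AdjoinRoot.root k) ^ r = 1 := fun k hk => by
    have h := (dvd_iff_aeval_root (X ^ r - 1 : F[X])).1 (hprod ▸ Finset.dvd_prod_of_mem _ hk)
    simpa [sub_eq_zero] using h
  have hne1 : ∀ f : s, AdjoinRoot.root (f : F[X]) ≠ 1 := fun f h => by
    have h2 : (f : F[X]) ∣ X - 1 := (dvd_iff_aeval_root _).2 (by simp [h])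
    exact (hirr f f.2).not_isUnit ((hcop _ (Finset.mem_insert_self _ _) f
      (Finset.mem_insert_of_mem f.2) (fun e => hX (e ▸ f.2))).isUnit_of_dvd' h2 dvd_rfl)
  have hroot : ∀ f : s, aeval (AdjoinRoot.root (f : F[X])) (f : F[X]) = 0 := fun f => by
    rw [AdjoinRoot.aeval_eq, AdjoinRoot.mk_self]
  -- the factor of the inverse root
  have hex : ∀ f : s, ∃ g : s, aeval ((AdjoinRoot.root (f : F[X])) ^ (r - 1)) (g : F[X]) = 0 := by
    intro f
    haveI : Fact (Irreducible (f : F[X])) := ⟨hirr f f.2⟩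
    set η := (AdjoinRoot.root (f : F[X])) ^ (r - 1)
    have hη : η ^ r = 1 := by rw [← pow_mul, mul_comm, pow_mul, hpow f (Finset.mem_insert_of_mem f.2), one_pow]
    have h0 : aeval η (∏ k ∈ insert (X - 1 : F[X]) s, k) = 0 := by simp [hprod, hη]
    rw [map_prod, Finset.prod_eq_zero_iff] at h0
    obtain ⟨k, hk, hk0⟩ := h0
    rcases Finset.mem_insert.1 hk with rfl | hk'
    · exfalso
      simp only [map_sub, aeval_X, map_one, sub_eq_zero] at hk0
      refine hne1 f ?_
      have h := hpow f (Finset.mem_insert_of_mem f.2)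
      rw [← Nat.sub_add_cancel hr.one_le, pow_succ, show (AdjoinRoot.root (f : F[X])) ^ (r - 1) = 1 from hk0,
        one_mul] at h
      exact h
    · exact ⟨⟨k, hk'⟩, hk0⟩
  choose τ hτ using hex
  have haev : ∀ {L : Type _} [Field L] [Algebra F L] (x : L) (f : F[X]),
      aeval x (f.comp (X ^ (r - 1))) = aeval (x ^ (r - 1)) f := fun {L} _ _ x f => by
    rw [aeval_comp, map_pow, aeval_X]
  have hinvinv : ∀ {L : Type _} [Field L] (x : L), x ^ r = 1 → (x ^ (r - 1)) ^ (r - 1) = x :=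
    fun {L} _ x hx => by rw [← pow_mul, hsq, pow_add, pow_mul, hx, one_pow, mul_one, pow_one]
  -- `f` divides the composite of `τ f`
  have hback : ∀ f : s, (f : F[X]) ∣ (τ f : F[X]).comp (X ^ (r - 1)) := fun f => by
    haveI : Fact (Irreducible (f : F[X])) := ⟨hirr f f.2⟩
    rw [dvd_iff_aeval_root, haev]; exact hτ f
  -- a factor dividing the composite of `f` is `τ f`
  have huniq : ∀ (f : s) (k : F[X]), k ∈ insert (X - 1 : F[X]) s →
      k ∣ (f : F[X]).comp (X ^ (r - 1)) → k = τ f := by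
    intro f k hk hdvd
    haveI : Fact (Irreducible k) := ⟨hirrS k hk⟩
    rw [dvd_iff_aeval_root, haev] at hdvd
    obtain ⟨c, hc⟩ := hback f
    have h1 := congrArg (aeval ((AdjoinRoot.root k) ^ (r - 1))) hc
    rw [haev, hinvinv _ (hpow k hk), map_mul, hdvd, zero_mul] at h1
    by_contra hne
    exact (hirrS k hk).not_isUnit ((hcop k hk (τ f : F[X]) (Finset.mem_insert_of_mem (τ f).2) hne).isUnit_of_dvd'
      dvd_rfl ((dvd_iff_aeval_root _).2 h1))
  have hdvdτ : ∀ f : s, (τ f : F[X]) ∣ (f : F[X]).comp (X ^ (r - 1)) := by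
    intro f
    haveI : Fact (Irreducible (f : F[X])) := ⟨hirr f f.2⟩
    by_contra hnd
    obtain ⟨a, b, hab⟩ := (hirr _ (τ f).2).coprime_iff_not_dvd.2 hnd
    have h1 := congrArg (aeval ((AdjoinRoot.root (f : F[X])) ^ (r - 1))) hab
    rw [map_add, map_mul, map_mul, hτ, haev, hinvinv _ (hpow f (Finset.mem_insert_of_mem f.2)), hroot,
      mul_zero, mul_zero, add_zero, map_one] at h1
    exact zero_ne_one h1
  have hcopτ : ∀ (f : s) (k : F[X]), k ∈ insert (X - 1 : F[X]) s → k ≠ τ f →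
      IsCoprime k ((f : F[X]).comp (X ^ (r - 1))) := fun f k hk hne =>
    (hirrS k hk).coprime_iff_not_dvd.2 fun h => hne (huniq f k hk h)
  refine ⟨hi0, ⟨⟨s, τ, hX, fun f => hirr f f.2, fun f => hdeg f f.2, hcard, hcop, ?_, ?_, hdvdτ, ?_, ?_, ?_, ?_⟩⟩⟩
  · convert hprod
  · exact fun f => hcopτ f _ (Finset.mem_insert_self _ _) fun e => hX (e ▸ (τ f).2)
  · exact fun f g hne => hcopτ f g (Finset.mem_insert_of_mem g.2) fun e => hne (Subtype.ext e)
  · exact fun f => (Subtype.ext (huniq (τ f) f (Finset.mem_insert_of_mem f.2) (hback f))).symm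
  · -- even degree: the Frobenius power `i / 2` inverts
    intro he f
    haveI : Fact (Irreducible (f : F[X])) := ⟨hirr f f.2⟩
    haveI : Module.Finite F (AdjoinRoot (f : F[X])) := (AdjoinRoot.powerBasis (hirr f f.2).ne_zero).finite
    haveI : CharP (AdjoinRoot (f : F[X])) p :=
      charP_of_injective_algebraMap (algebraMap F (AdjoinRoot (f : F[X]))).injective p
    set ζ := AdjoinRoot.root (f : F[X])
    set q := Fintype.card F with hqdef
    have hneg : ((q : ℕ) : ZMod r) ^ (i / 2) = -1 := by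
      have h2 : (((q : ℕ) : ZMod r) ^ (i / 2)) ^ 2 = 1 := by
        rw [← pow_mul, show i / 2 * 2 = i by obtain ⟨k, rfl⟩ := he; omega, hi, pow_orderOf_eq_one]
      refine (sq_eq_one_iff.1 h2).resolve_left fun h3 => ?_
      have hdd : i ∣ i / 2 := by
        have h4 := orderOf_dvd_of_pow_eq_one h3
        rwa [← hi] at h4
      have := Nat.le_of_dvd (by obtain ⟨k, rfl⟩ := he; omega) hdd
      omega
    have hζ := hpow f (Finset.mem_insert_of_mem f.2)
    have hord : orderOf ζ = r := orderOf_eq_prime hζ (hne1 f)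
    have hexp : ζ ^ (q ^ (i / 2)) = ζ ^ (r - 1) := by
      have hcast : ((q ^ (i / 2) : ℕ) : ZMod r) = ((r - 1 : ℕ) : ZMod r) := by
        rw [Nat.cast_pow, hneg, Nat.cast_sub hr.one_le, ZMod.natCast_self, Nat.cast_one, zero_sub]
      rw [← pow_mod_orderOf, hord, (ZMod.natCast_eq_natCast_iff' _ _ _).1 hcast]
      conv_rhs => rw [← pow_mod_orderOf, hord]
    have hfr : (iterateFrobenius (AdjoinRoot (f : F[X])) p ((e : ℕ) * (i / 2))).comp (algebraMap F _) =
        algebraMap F (AdjoinRoot (f : F[X])) := RingHom.ext fun c => by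
      rw [RingHom.comp_apply, iterateFrobenius_def, pow_mul p, ← hqe, ← map_pow]
      exact congrArg _ (FiniteField.pow_card_pow _ _)
    have h0 : aeval (ζ ^ (r - 1)) (f : F[X]) = 0 := by
      rw [← hexp, aeval_def, ← hfr, show ζ ^ (q ^ (i / 2)) = iterateFrobenius _ p ((e : ℕ) * (i / 2)) ζ by
        rw [iterateFrobenius_def, pow_mul p, ← hqe], ← hom_eval₂, ← aeval_def, hroot, map_zero]
    refine (Subtype.ext (huniq f f (Finset.mem_insert_of_mem f.2) ?_)).symm
    rw [dvd_iff_aeval_root, haev]; exact h0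
  · -- odd degree: no automorphism of order two
    intro ho f hfix
    haveI : Fact (Irreducible (f : F[X])) := ⟨hirr f f.2⟩
    haveI : Module.Finite F (AdjoinRoot (f : F[X])) := (AdjoinRoot.powerBasis (hirr f f.2).ne_zero).finite
    haveI : Finite (AdjoinRoot (f : F[X])) := Module.finite_of_finite F
    set L := AdjoinRoot (f : F[X])
    set ζ := AdjoinRoot.root (f : F[X])
    have h0 : aeval (ζ ^ (r - 1)) (f : F[X]) = 0 := by
      have h := hτ f
      rwa [hfix] at h
    have hζ := hpow f (Finset.mem_insert_of_mem f.2)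
    let σ : L →ₐ[F] L := AdjoinRoot.liftAlgHom (f : F[X]) (Algebra.ofId F L) (ζ ^ (r - 1)) h0
    have hσ : σ ζ = ζ ^ (r - 1) := AdjoinRoot.liftAlgHom_root _ _ _ h0
    let σe : L ≃ₐ[F] L := AlgEquiv.ofBijective σ (Finite.injective_iff_bijective.1 σ.toRingHom.injective)
    have h2 : orderOf σe = 2 := by
      refine orderOf_eq_prime ?_ ?_
      · refine AlgEquiv.ext fun x => ?_
        have : σ.comp σ = AlgHom.id F L := AdjoinRoot.algHom_ext (by
          show σ (σ ζ) = ζ
          rw [hσ, map_pow, hσ, hinvinv _ hζ])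
        rw [pow_two]
        exact AlgHom.congr_fun this x
      · intro h1
        have h : σe ζ = ζ := by rw [h1]; rfl
        have h' : ζ ^ (r - 1) = ζ := hσ.symm.trans h
        have h3 : ζ ^ 2 = 1 := by
          calc ζ ^ 2 = ζ ^ (r - 1) * ζ := by rw [h', pow_two]
            _ = 1 := by rw [← pow_succ, Nat.sub_add_cancel hr.one_le, hζ]
        have hd : r ∣ 2 := orderOf_eq_prime hζ (hne1 f) ▸ orderOf_dvd_of_pow_eq_one h3
        exact hr2 ((Nat.prime_dvd_prime_iff_eq hr Nat.prime_two).1 hd)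
    have hd : 2 ∣ i := by
      rw [← hdeg f f.2, ← ClassConj.finrank_adjoinRoot (hirr f f.2).ne_zero,
        ← IsGalois.card_aut_eq_finrank F L, ← h2]
      exact orderOf_dvd_natCard σe
    exact Nat.not_even_iff_odd.2 ho (even_iff_two_dvd.2 hd)

end Cfsg.Agent.PrimeSO
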