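import Cfsg.Agent.PrimeSO.Count

/-!
Isometries without fixed vectors of prescribed kernel dimensions, with an invariant quadratic and an
invariant alternating form.
-/

set_option autoImplicit false
set_option linter.all false

namespace Cfsg.Agent.PrimeSO

open Polynomial Module
open scoped Matrix

variable {F : Type*} [Field F] [Fintype F] {K r : ℕ}

/-- A transposed form in a commutative ring of matrices: from a non-degenerate invariant form of
`M` we get a quadratic and an alternating one. -/
theorem exists_invariant_matrices (hr : 0 < r) (M c : GL (Fin K) F) (hM : M ^ r = 1)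
    (hfix : IsUnit ((M : Matrix (Fin K) (Fin K) F) - ((M⁻¹ : GL (Fin K) F) : Matrix (Fin K) (Fin K) F)))
    (hc : (M : Matrix (Fin K) (Fin K) F)ᵀ * (c : Matrix (Fin K) (Fin K) F) * (M : Matrix (Fin K) (Fin K) F) = c)
    (ε : F) (hε : ε = 1 ∨ ε = -1) :
    ∃ A : Matrix (Fin K) (Fin K) F, IsUnit (A + ε • Aᵀ) ∧
      (M : Matrix (Fin K) (Fin K) F)ᵀ * A * (M : Matrix (Fin K) (Fin K) F) = A := by
  classical
  set m := (M : Matrix (Fin K) (Fin K) F)
  set m' := ((M⁻¹ : GL (Fin K) F) : Matrix (Fin K) (Fin K) F)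
  set C := (c : Matrix (Fin K) (Fin K) F)
  set C' := ((c⁻¹ : GL (Fin K) F) : Matrix (Fin K) (Fin K) F)
  have hC1 : C' * C = 1 := c.inv_mul
  have hC2 : C * C' = 1 := c.mul_inv
  have hm1 : m' * m = 1 := M.inv_mul
  have hm2 : m * m' = 1 := M.mul_inv
  have hεε : ε * ε = 1 := by rcases hε with rfl | rfl <;> norm_num
  let s : Matrix (Fin K) (Fin K) F → Matrix (Fin K) (Fin K) F := fun x => C' * xᵀ * C
  have hsadd : ∀ a b, s (a + b) = s a + s b := fun a b => by
    simp only [s, Matrix.transpose_add, mul_add, add_mul]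
  have hsmul : ∀ a b, s (a * b) = s b * s a := fun a b => by
    simp only [s, Matrix.transpose_mul, mul_assoc]
    rw [← mul_assoc C C', hC2, one_mul]
  have hs0 : s 0 = 0 := by simp [s]
  have hsneg : ∀ a, s (-a) = -s a := fun a => by simp [s, Matrix.transpose_neg]
  have hs1 : s 1 = 1 := by simp [s, hC1]
  -- the image of `m`
  have hsm : s m = m' := by
    have h : mᵀ * C = C * m' := by rw [← mul_one (mᵀ * C), ← hm2, ← mul_assoc, hc]
    show C' * mᵀ * C = m'
    rw [mul_assoc, h, ← mul_assoc, hC1, one_mul]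
  have hsm' : s m' = m := by
    calc s m' = s m' * (s m * m) := by rw [hsm, hm1, mul_one]
      _ = s (m * m') * m := by rw [hsmul m m', mul_assoc (s m') (s m) m]
      _ = m := by rw [hm2, hs1, one_mul]
  -- the twist
  set u : Matrix (Fin K) (Fin K) F := ε • (C' * Cᵀ)
  set u' : Matrix (Fin K) (Fin K) F := ε • (C'ᵀ * C)
  have hT1 : Cᵀ * C'ᵀ = 1 := by rw [← Matrix.transpose_mul, hC1, Matrix.transpose_one]
  have hT2 : C'ᵀ * Cᵀ = 1 := by rw [← Matrix.transpose_mul, hC2, Matrix.transpose_one]
  have hu1 : u * u' = 1 := by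
    simp only [u, u', smul_mul_assoc, mul_smul_comm, smul_smul, hεε, one_smul]
    rw [mul_assoc, ← mul_assoc Cᵀ, hT1, one_mul, hC1]
  have hu2 : u' * u = 1 := by
    simp only [u, u', smul_mul_assoc, mul_smul_comm, smul_smul, hεε, one_smul]
    rw [mul_assoc, ← mul_assoc C, hC2, one_mul, hT2]
  have hsu : s u = u' := by
    simp only [s, u, u', Matrix.transpose_smul, Matrix.transpose_mul, Matrix.transpose_transpose,
      mul_smul_comm, smul_mul_assoc]
    rw [← mul_assoc C' C, hC1, one_mul]
  have hsu' : s u' = u := by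
    simp only [s, u, u', Matrix.transpose_smul, Matrix.transpose_mul, Matrix.transpose_transpose,
      mul_smul_comm, smul_mul_assoc]
    rw [mul_assoc, mul_assoc, hC1, mul_one]
  have hmu : m * u = u * m := by
    have h : mᵀ * Cᵀ * m = Cᵀ := by
      have h1 := congrArg Matrix.transpose hc
      rwa [Matrix.transpose_mul, Matrix.transpose_mul, Matrix.transpose_transpose, ← mul_assoc] at h1
    have h1 : C' * mᵀ = m' * C' := by
      have e : s m * C' = C' * mᵀ := by simp only [s, mul_assoc, hC2, mul_one]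
      rw [← e, hsm]
    have h2 : C' * Cᵀ = m' * (C' * Cᵀ) * m := by
      conv_lhs => rw [← h]
      rw [← mul_assoc, ← mul_assoc, h1, mul_assoc m' C']
    show m * (ε • (C' * Cᵀ)) = ε • (C' * Cᵀ) * m
    rw [mul_smul_comm, smul_mul_assoc]
    conv_lhs => rw [h2]
    rw [← mul_assoc, ← mul_assoc, hm2, one_mul]
  have cinv : ∀ {a a' b : Matrix (Fin K) (Fin K) F}, a * a' = 1 → a' * a = 1 → a * b = b * a → a' * b = b * a' :=
    fun {a a' b} h1 h2 h => by
      calc a' * b = a' * (b * a) * a' := by rw [mul_assoc, mul_assoc b a, h1, mul_one]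
        _ = b * a' := by rw [← h, ← mul_assoc a' a, h2, one_mul]
  set S : Set (Matrix (Fin K) (Fin K) F) := {m, m', u, u'} with hS
  have hcomm : ∀ a ∈ S, ∀ b ∈ S, a * b = b * a := by
    have e1 : m' * u = u * m' := cinv hm2 hm1 hmu
    have e2 : m * u' = u' * m := (cinv hu1 hu2 hmu.symm).symm
    have e3 : m' * u' = u' * m' := cinv hm2 hm1 e2
    rintro a (rfl | rfl | rfl | rfl) b (rfl | rfl | rfl | rfl)
    all_goals first
      | rfl | exact hmu | exact hmu.symm | exact e1 | exact e1.symm | exact e2 | exact e2.symm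
      | exact e3 | exact e3.symm | rw [hm2, hm1] | rw [hu2, hu1]
  letI : CommRing (Subring.closure S) := Subring.closureCommRingOfComm hcomm
  have hmem : ∀ a ∈ Subring.closure S, s a ∈ Subring.closure S := by
    intro a ha
    induction ha using Subring.closure_induction with
    | mem x hx =>
      rcases hx with rfl | rfl | rfl | rfl
      · rw [hsm]; exact Subring.subset_closure (Or.inr (Or.inl rfl))
      · rw [hsm']; exact Subring.subset_closure (Or.inl rfl)
      · rw [hsu]; exact Subring.subset_closure (Or.inr (Or.inr (Or.inr rfl)))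
      · rw [hsu']; exact Subring.subset_closure (Or.inr (Or.inr (Or.inl rfl)))
    | zero => rw [hs0]; exact zero_mem _
    | one => rw [hs1]; exact one_mem _
    | add x y _ _ hx hy => rw [hsadd]; exact add_mem hx hy
    | neg x _ hx => rw [hsneg]; exact neg_mem hx
    | mul x y _ _ hx hy => rw [hsmul]; exact mul_mem hy hx
  have hs2 : ∀ a ∈ Subring.closure S, s (s a) = a := by
    intro a ha
    induction ha using Subring.closure_induction with
    | mem x hx =>
      rcases hx with rfl | rfl | rfl | rfl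
      · rw [hsm, hsm']
      · rw [hsm', hsm]
      · rw [hsu, hsu']
      · rw [hsu', hsu]
    | zero => rw [hs0, hs0]
    | one => rw [hs1, hs1]
    | add x y _ _ hx hy => rw [hsadd, hsadd, hx, hy]
    | neg x _ hx => rw [hsneg, hsneg, hx]
    | mul x y _ _ hx hy => rw [hsmul x y, hsmul (s y) (s x), hx, hy]
  let σ : Subring.closure S →+* Subring.closure S :=
    { toFun := fun a => ⟨s a, hmem a a.2⟩
      map_one' := Subtype.ext hs1
      map_zero' := Subtype.ext hs0
      map_add' := fun a b => Subtype.ext (hsadd a b)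
      map_mul' := fun a b => by
        rw [mul_comm a b]
        exact Subtype.ext (hsmul b a) }
  have hunit : ∀ a : Subring.closure S, IsUnit (a : Matrix (Fin K) (Fin K) F) → IsUnit a := by
    intro a ha
    obtain ⟨b, hb⟩ := Finite.surjective_of_injective
      (f := fun b : Subring.closure S => a * b) (fun b b' e => Subtype.ext (ha.mul_left_cancel (congrArg Subtype.val e))) 1
    exact ⟨⟨a, b, hb, (mul_comm b a).trans hb⟩, rfl⟩
  let θ : Subring.closure S := ⟨m, Subring.subset_closure (Or.inl rfl)⟩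
  have hd : IsUnit (θ - σ θ) := hunit _ (by show IsUnit (m - s m); rw [hsm]; exact hfix)
  obtain ⟨g, hgu, hg⟩ := UClass.exists_unit_twist σ (fun a => Subtype.ext (hs2 a a.2)) hd
    (u := ⟨u, Subring.subset_closure (Or.inr (Or.inr (Or.inl rfl)))⟩) (Subtype.ext (by
      show u * s u = 1
      rw [hsu, hu1]))
  obtain ⟨d, hd'⟩ := hd
  -- an element of trace one
  set z : Subring.closure S := θ * (d⁻¹ : (Subring.closure S)ˣ)
  have hz : z + σ z = 1 := by
    have hσd : σ (d : Subring.closure S) = -(d : Subring.closure S) := by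
      rw [hd', map_sub, show σ (σ θ) = θ from Subtype.ext (hs2 _ θ.2)]; ring
    have hσw : σ ((d⁻¹ : (Subring.closure S)ˣ) : Subring.closure S) = -((d⁻¹ : (Subring.closure S)ˣ) : Subring.closure S) := by
      have h : σ ((d⁻¹ : (Subring.closure S)ˣ) : Subring.closure S) * σ (d : Subring.closure S) = 1 := by
        rw [← map_mul, Units.inv_mul, map_one]
      rw [hσd, mul_neg] at h
      have h' : -σ ((d⁻¹ : (Subring.closure S)ˣ) : Subring.closure S) * (d : Subring.closure S) = 1 := by
        rw [neg_mul]; exact h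
      rw [← neg_neg (σ _), Units.eq_inv_of_mul_eq_one_left (u := d) (a := -σ ((d⁻¹ : (Subring.closure S)ˣ) : Subring.closure S)) (by rw [mul_comm]; exact h')]
    show θ * _ + σ (θ * _) = 1
    rw [map_mul, hσw, mul_neg, ← sub_eq_add_neg, ← sub_mul, ← hd', Units.mul_inv]
  obtain ⟨gu, hgu'⟩ := hgu.map (Subring.closure S).subtype
  have hcom : ∀ b : Subring.closure S, m * (b : Matrix (Fin K) (Fin K) F) = b * m := fun b => by
    have := congrArg Subtype.val (mul_comm θ b)
    simpa [θ] using this
  refine ⟨C * ((g * z : Subring.closure S) : Matrix (Fin K) (Fin K) F), ?_, ?_⟩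
  · -- the symmetrisation is `C * g`
    have hg' : s (g : Matrix (Fin K) (Fin K) F) * u = g := congrArg Subtype.val hg
    have hgT : ε • ((g : Matrix (Fin K) (Fin K) F)ᵀ * Cᵀ) = C * (g : Matrix (Fin K) (Fin K) F) := by
      conv_rhs => rw [← hg']
      simp only [s, u, mul_smul_comm, smul_mul_assoc, ← mul_assoc, hC2, one_mul]
      simp only [mul_assoc, ← mul_assoc C C', hC2, one_mul]
    have hz' : (z : Matrix (Fin K) (Fin K) F) + s z = 1 := congrArg Subtype.val hz
    have key : ε • ((C * ((g * z : Subring.closure S) : Matrix (Fin K) (Fin K) F))ᵀ) =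
        C * (g : Matrix (Fin K) (Fin K) F) * s z := by
      rw [Subring.coe_mul, Matrix.transpose_mul, Matrix.transpose_mul, mul_assoc, ← mul_smul_comm, hgT]
      have hzs : (z : Matrix (Fin K) (Fin K) F)ᵀ * C = C * s z := by
        simp only [s, ← mul_assoc, hC2, one_mul]
      rw [← mul_assoc, hzs, mul_assoc C (s z), show s z * (g : Matrix (Fin K) (Fin K) F) = g * s z from
        congrArg Subtype.val (mul_comm (σ z) g), mul_assoc]
    rw [key, Subring.coe_mul, ← mul_assoc, ← mul_add, hz', mul_one]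
    exact c.isUnit.mul ((show (g : Matrix (Fin K) (Fin K) F) = gu from hgu'.symm) ▸ gu.isUnit)
  · rw [mul_assoc, mul_assoc C, ← hcom, ← mul_assoc, ← mul_assoc, ← mul_assoc]
    simp only [hc]

/-- The bilinear form of an invertible matrix. -/
theorem toBilin_nondegenerate {A : Matrix (Fin K) (Fin K) F} (hA : IsUnit A) :
    (Matrix.toBilin' A).Nondegenerate :=
  (Matrix.nondegenerate_of_det_ne_zero ((Matrix.isUnit_iff_isUnit_det A).1 hA).ne_zero).toBilin'

/-- An isometry without fixed vectors of given invariant kernel dimensions. -/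
theorem exists_model {i : ℕ} (hr : r.Prime) (hr2 : r ≠ 2) (Φ : Fac F r i) (a : Φ.s → ℕ)
    (hinv : ∀ f, a (Φ.tau f) = a f) (hK : K = (∑ f, a f) * i) :
    ∃ (T : Module.End F (Fin K → F)) (Q : QuadraticForm F (Fin K → F)) (H : LinearMap.BilinForm F (Fin K → F)),
      T ^ r = 1 ∧ (∀ v, T v = v → v = 0) ∧ (∀ f : Φ.s, kd T (f : F[X]) = a f * i) ∧
      (∀ v, Q (T v) = Q v) ∧ (QuadraticMap.polarBilin Q).Nondegenerate ∧
      H.IsAlt ∧ H.Nondegenerate ∧ ∀ u v, H (T u) (T v) = H u v := by
  classical
  let b : F[X] → ℕ := fun f => if h : f ∈ Φ.s then a ⟨f, h⟩ else 0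
  have hsum : ∑ f ∈ insert (X - 1 : F[X]) Φ.s, b f * f.natDegree = K := by
    rw [Finset.sum_insert Φ.hX, show b (X - 1) = 0 by simp [b, Φ.hX], zero_mul, zero_add, hK, Finset.sum_mul,
      ← Finset.sum_coe_sort Φ.s (fun f => b f * f.natDegree)]
    exact Finset.sum_congr rfl fun f _ => by simp [b, Φ.deg]
  have hne : ∀ f ∈ insert (X - 1 : F[X]) Φ.s, id f ≠ (0 : F[X]) := fun f hf => by
    rcases Finset.mem_insert.1 hf with rfl | hf
    · simpa using X_sub_C_ne_zero (1 : F)
    · exact (Φ.irr ⟨f, hf⟩).ne_zero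
  obtain ⟨y, hy, hyd⟩ := ClassConj.exists_end_kerDims (insert (X - 1 : F[X]) Φ.s) id hne Φ.cop b hsum
  have hyr : y ^ r = 1 := by
    simp only [id_eq, Φ.prod_eq] at hy
    simpa [sub_eq_zero] using hy
  have hkd : ∀ f : Φ.s, kd y (f : F[X]) = a f * i := fun f => by
    have := hyd f (Finset.mem_insert_of_mem f.2)
    simpa [b, Φ.deg, kd] using this
  have hfix : ∀ v, y v = v → v = 0 := by
    intro v hv
    have h := hyd (X - 1) (Finset.mem_insert_self _ _)
    simp only [id_eq, show b (X - 1) = 0 by simp [b, Φ.hX], zero_mul] at h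
    have hv' : v ∈ LinearMap.ker (aeval y (X - 1 : F[X])) := by simp [hv]
    rwa [Submodule.finrank_eq_zero.1 h, Submodule.mem_bot] at hv'
  set m := (Matrix.toLinAlgEquiv' : Matrix (Fin K) (Fin K) F ≃ₐ[F] _).symm y
  have hym : Matrix.toLinAlgEquiv' m = y := AlgEquiv.apply_symm_apply _ _
  have hmr : m ^ r = 1 := by rw [← map_pow, hyr, map_one]
  set S : Module.End F (Fin K → F) := Matrix.toLinAlgEquiv' (mᵀ ^ (r - 1))
  have hSr : S ^ r = 1 := by
    rw [← map_pow, ← pow_mul, mul_comm, pow_mul, ← Matrix.transpose_pow, hmr, Matrix.transpose_one, one_pow, map_one]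
  have hST : ∀ f : Φ.s, kd y (f : F[X]) = kd S (f : F[X]) := fun f => by
    have htr : ∀ (N : Matrix (Fin K) (Fin K) F) (g : F[X]), aeval Nᵀ g = (aeval N g)ᵀ := fun N g => by
      induction g using Polynomial.induction_on' with
      | add g h hg hh => rw [map_add, map_add, Matrix.transpose_add, hg, hh]
      | monomial k c =>
        simp [aeval_monomial, Matrix.transpose_pow, Algebra.algebraMap_eq_smul_one]
    rw [show kd S (f : F[X]) = UClass.nullity (aeval (mᵀ ^ (r - 1)) (f : F[X])) by
        rw [kd, UClass.aeval_toLinAlgEquiv', UClass.nullity_eq_ker_endo],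
      ← Matrix.transpose_pow, htr, UClass.nullity_transpose, ← UClass.nullity_eq_ker_endo,
      ← UClass.aeval_toLinAlgEquiv', map_pow, hym, ker_comp_pow Φ hyr f]
    show _ = kd y _
    rw [hkd, hkd, hinv]
  obtain ⟨E, hE⟩ := exists_intertwiner Φ hyr hSr rfl hST
  set C := LinearMap.toMatrix' E.toLinearMap
  have hCu : IsUnit C := by
    rw [Matrix.isUnit_iff_isUnit_det, LinearMap.det_toMatrix']
    exact LinearEquiv.isUnit_det' E
  have hCm : mᵀ * C * m = C := by
    have h : C * m = mᵀ ^ (r - 1) * C := Matrix.ext_iff_mulVec.2 fun v => by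
      rw [← Matrix.mulVec_mulVec, ← Matrix.mulVec_mulVec]
      simp only [C, LinearMap.toMatrix'_mulVec]
      have h1 := hE v
      rw [← hym] at h1
      exact h1
    rw [mul_assoc, h, ← mul_assoc, ← pow_succ', Nat.sub_add_cancel hr.one_le, ← Matrix.transpose_pow, hmr,
      Matrix.transpose_one, one_mul]
  obtain ⟨M, hM⟩ : IsUnit m := (isUnit_pow_iff hr.ne_zero).1 (by rw [hmr]; exact isUnit_one)
  obtain ⟨c, hc⟩ := hCu
  have hMr : M ^ r = 1 := Units.ext (by rw [Units.val_pow_eq_pow_val, hM, hmr, Units.val_one])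
  have hmv : ∀ v, m *ᵥ v = y v := fun v => by rw [← hym]; rfl
  have hu : IsUnit ((M : Matrix (Fin K) (Fin K) F) - ((M⁻¹ : GL (Fin K) F) : Matrix (Fin K) (Fin K) F)) := by
    refine Matrix.mulVec_injective_iff_isUnit.1 fun v w hvw => ?_
    rw [← sub_eq_zero, ← Matrix.mulVec_sub, Matrix.sub_mulVec, sub_eq_zero] at hvw
    set x := v - w
    have h2 : y (y x) = x := by
      have h := congrArg (fun z => (M : Matrix (Fin K) (Fin K) F) *ᵥ z) hvw
      simp only [Matrix.mulVec_mulVec, Units.mul_inv, Matrix.one_mulVec] at h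
      rwa [hM, ← Matrix.mulVec_mulVec, hmv, hmv] at h
    have heven : ∀ k, (y ^ (2 * k)) x = x := fun k => by
      induction k with
      | zero => simp
      | succ k ih =>
        rw [show 2 * (k + 1) = 2 + 2 * k by ring, pow_add, Module.End.mul_apply, ih, pow_two, Module.End.mul_apply, h2]
    obtain ⟨k, hk⟩ := hr.odd_of_ne_two hr2
    have h1 : y x = x := by
      have h : (y ^ r) x = x := by rw [hyr]; rfl
      rwa [hk, pow_succ', Module.End.mul_apply, heven] at h
    exact sub_eq_zero.1 (hfix x h1)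
  obtain ⟨A, hA, hAm⟩ := exists_invariant_matrices hr.pos M c hMr hu (by rw [hM, hc]; exact hCm) 1 (Or.inl rfl)
  obtain ⟨A', hA', hAm'⟩ := exists_invariant_matrices hr.pos M c hMr hu (by rw [hM, hc]; exact hCm) (-1) (Or.inr rfl)
  rw [hM] at hAm hAm'
  rw [one_smul] at hA
  rw [neg_one_smul, ← sub_eq_add_neg] at hA'
  have hinvB : ∀ (D : Matrix (Fin K) (Fin K) F), mᵀ * D * m = D → ∀ u v,
      Matrix.toBilin' D (y u) (y v) = Matrix.toBilin' D u v := fun D hD u v => by
    rw [Matrix.toBilin'_apply', Matrix.toBilin'_apply', ← hmv, ← hmv]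
    conv_rhs => rw [← hD]
    rw [← Matrix.mulVec_mulVec, ← Matrix.mulVec_mulVec, Matrix.dotProduct_mulVec _ mᵀ, Matrix.vecMul_transpose]
  refine ⟨y, (Matrix.toBilin' A).toQuadraticMap, Matrix.toBilin' (A' - A'ᵀ), hyr, hfix, hkd,
    fun v => hinvB A hAm v v, ?_, ?_, toBilin_nondegenerate hA', hinvB _ ?_⟩
  · have h : QuadraticMap.polarBilin (Matrix.toBilin' A).toQuadraticMap = Matrix.toBilin' (A + Aᵀ) :=
      LinearMap.ext₂ fun u v => by
        simp only [LinearMap.BilinMap.polarBilin_toQuadraticMap, LinearMap.add_apply, LinearMap.flip_apply,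
          map_add, Matrix.toBilin'_apply', Matrix.dotProduct_mulVec v A, dotProduct_comm _ u]
        rw [← Matrix.mulVec_transpose]
    rw [h]
    exact toBilin_nondegenerate hA
  · intro v
    rw [map_sub, LinearMap.sub_apply, LinearMap.sub_apply, Matrix.toBilin'_apply', Matrix.toBilin'_apply',
      Matrix.dotProduct_mulVec v A', dotProduct_comm _ v, ← Matrix.mulVec_transpose, sub_self]
  · have ht := congrArg Matrix.transpose hAm'
    rw [Matrix.transpose_mul, Matrix.transpose_mul, Matrix.transpose_transpose, ← mul_assoc] at ht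
    rw [mul_sub, sub_mul, hAm', ht]

end Cfsg.Agent.PrimeSO
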